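import Cfsg.Agent.Lib.TVn.Main
import Cfsg.Agent.Lib.Q4.Basic

/-!
# The transvection theorem for quasisimple groups
-/

set_option autoImplicit false

namespace Cfsg.Lib.TVn

open scoped MatrixGroups Matrix commutatorElement
open Cfsg.Geo Cfsg.Lib.Asch Cfsg.Lib.Linear Module Matrix

variable {ι : Type} [Fintype ι] [DecidableEq ι] {F : Type*} [Field F] {P : Subgroup (GL ι F)}

theorem classify' [Finite F] (h : Hyp P) (h4 : 4 ≤ Fintype.card ι)
    (h5 : Fintype.card ι ≤ 5 ∨ (2 : F) ≠ 0) (ht : Q4R.HasTv P) :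
    P = specialLinear ι F ∨ Re P ∨ IsSU P := by
  obtain ⟨g, hg, v, φ, hv, hφ, h0, e⟩ := ht
  exact classify h h4 h5 hv hφ ⟨h0, (Units.ext e : g = tvGL v φ h0) ▸ hg⟩

/-- In odd dimension a group with real traces contains no transvection. -/
theorem not_re_of_odd [Finite F] (he : env P = ⊤) (ho : Odd (Fintype.card ι))
    (h3 : 3 ≤ Fintype.card ι) (ht : Q4R.HasTv P) : ¬ Re P := fun hr => by
  obtain ⟨g, hg, v, φ, hv, hφ, h0, e⟩ := ht
  have : Nonempty ι := Fintype.card_pos_iff.1 (by omega)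
  obtain ⟨ε, f, hf, hs, ha⟩ := exists_sform_of_trace (σ := RingHom.id F) (fun _ => rfl)
    (H := P) he Subgroup.le_normalizer hr
  have hne : ¬ ∀ v, f v v = 0 := fun hv => Nat.not_even_iff_odd.2 ho (hf.even_card hv)
  have h2 : (2 : F) ≠ 0 := fun h2 => hne (hf.alt_of_irr h2 (by omega) (irr_of_env he) hs)
  rcases hf.eps_id with rfl | rfl
  · obtain ⟨-, c, hc, e, -⟩ := tv_form hf (fun x hx => hf.adj_eq_inv_iff.1 (ha x hx)) hv hφ
      ⟨h0, (Units.ext e : g = tvGL v φ h0) ▸ hg⟩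
    exact mul_ne_zero h2 hc (by rw [RingHom.id_apply] at e; linear_combination e)
  · exact hne (hf.alt_of_neg h2)

theorem hyp_of_qs [Finite F] [Nonempty ι] (h : Q4.QS P) (hs : Q4.NoSub P) : Hyp P :=
  ⟨h.env, h.le_sl, h.perfect, fun _ a b c => h.le_of_normal a b c, fun _ a => hs.eq_top h.env a⟩

theorem IsSU.fullU (h : IsSU P) : Q4.FullU P := by
  obtain ⟨σ, q, f, hq, hf, e⟩ := h
  exact ⟨σ, f, hq.exists_ne, hf, e⟩

/-- **Transvection theorem**, in the language of `Q4`. -/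
theorem tvq [Finite F] (h : Q4.QS P) (hs : Q4.NoSub P) (ht : Q4R.HasTv P)
    (h4 : 4 ≤ Fintype.card ι) (h5 : Fintype.card ι ≤ 5 ∨ (2 : F) ≠ 0) :
    P = specialLinear ι F ∨ Q4.Real P ∨ Q4.FullU P := by
  haveI : Nonempty ι := Fintype.card_pos_iff.1 (by omega)
  exact (classify' (hyp_of_qs h hs) h4 h5 ht).imp_right (.imp_right IsSU.fullU)

theorem tv4 [Finite F] {P : Subgroup (GL (Fin 4) F)} (h : Q4.QS P) (hs : Q4.NoSub P)
    (ht : Q4R.HasTv P) : P = specialLinear (Fin 4) F ∨ Q4.Real P ∨ Q4.FullU P :=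
  tvq h hs ht (by simp) (.inl (by simp))

end Cfsg.Lib.TVn
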