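import Cfsg.Agent.Lib.TVn.Mon

/-!
# Odd transpositions: monomial frames do not exist
-/

set_option autoImplicit false

namespace Cfsg.Lib.TVn

open scoped MatrixGroups Matrix commutatorElement
open Cfsg.Geo Cfsg.Lib.Asch Cfsg.Lib.Linear Module Matrix

variable {ι : Type} [Fintype ι] [DecidableEq ι] {F : Type*} [Field F] {P : Subgroup (GL ι F)}
  {k : Subfield F}

variable {K : Type*} [Field K] {G : Subgroup (GL ι K)} {l : K} {r : ℕ} {e ε : Fin r → ι → K}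

namespace Fr

variable (h : Fr G l e ε)
include h

theorem ee (i : Fin r) : ε i ⬝ᵥ e i = 1 := by simp [h.dual]

theorem ee' {i j : Fin r} (hij : i ≠ j) : ε i ⬝ᵥ e j = 0 := by simp [h.dual, hij]

theorem one_ne : l ≠ 1 := fun e => h.cube (by simp [e])

theorem third (h3 : 3 ≤ r) (i j : Fin r) : ∃ m, m ≠ i ∧ m ≠ j := by
  by_contra hn
  push Not at hn
  have : (Finset.univ : Finset (Fin r)) ⊆ {i, j} := fun m _ => by
    by_cases e : m = i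
    · simp [e]
    · simp [hn m e]
  have := (Finset.card_le_card this).trans Finset.card_le_two
  rw [Finset.card_fin] at this
  omega

theorem nl (hs : Sg G) {v φ : ι → K} (hv : v ≠ 0) (hφ : φ ≠ 0) (s : Tv G v φ) {i j : Fin r}
    (hij : i ≠ j) (n : ℤ) :
    φ ⬝ᵥ e i + l ^ n * φ ⬝ᵥ e j = 0 ↔ ε i ⬝ᵥ v + (l ^ n)⁻¹ * ε j ⬝ᵥ v = 0 := by
  have h1 : e i + l ^ n • e j ≠ 0 := fun a => by
    simpa [h.ee, h.ee' hij] using congrArg (ε i ⬝ᵥ ·) a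
  have h2 : ε i + (l ^ n)⁻¹ • ε j ≠ 0 := fun a => by
    simpa [h.ee, h.ee' hij.symm] using congrArg (· ⬝ᵥ e i) a
  exact ⟨fun a => by simpa using hs.nl hφ h1 h2 s (h.tv i j hij n) (by simpa using a),
    fun a => by simpa using hs.nl h2 hv hφ (h.tv i j hij n) s (by simpa using a)⟩

theorem zz (hs : Sg G) {v φ : ι → K} (hv : v ≠ 0) (hφ : φ ≠ 0) (s : Tv G v φ) {i j : Fin r}
    (hij : i ≠ j) : φ ⬝ᵥ e i = 0 ∧ φ ⬝ᵥ e j = 0 ↔ ε i ⬝ᵥ v = 0 ∧ ε j ⬝ᵥ v = 0 := by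
  have h0 := h.nl hs hv hφ s hij 0
  have h1 := h.nl hs hv hφ s hij 1
  simp only [zpow_zero, inv_one, one_mul, zpow_one] at h0 h1
  refine ⟨fun ⟨a, b⟩ => ?_, fun ⟨a, b⟩ => ?_⟩
  · have c0 := h0.1 (by simp [a, b])
    have c1 := h1.1 (by simp [a, b])
    have : ε j ⬝ᵥ v = 0 := (mul_eq_zero.1 (show (l⁻¹ - 1) * ε j ⬝ᵥ v = 0 by
      linear_combination c1 - c0)).resolve_left (by simpa [sub_eq_zero] using h.one_ne)
    exact ⟨by simpa [this] using c0, this⟩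
  · have c0 := h0.2 (by simp [a, b])
    have c1 := h1.2 (by simp [a, b])
    have : φ ⬝ᵥ e j = 0 := (mul_eq_zero.1 (show (l - 1) * φ ⬝ᵥ e j = 0 by
      linear_combination c1 - c0)).resolve_left (sub_ne_zero.2 h.one_ne)
    exact ⟨by simpa [this] using c0, this⟩

theorem alt [Finite G] (hs : Sg G) {v φ : ι → K} (s : Tv G v φ) {i j : Fin r} (hij : i ≠ j)
    (hx : (ε i ⬝ᵥ v) * (φ ⬝ᵥ e i) ≠ 0) :
    (ε j ⬝ᵥ v) * (φ ⬝ᵥ e j) = (ε i ⬝ᵥ v) * (φ ⬝ᵥ e i) ∨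
      (ε j ⬝ᵥ v = 0 ∧ φ ⬝ᵥ e j = 0 ∧ (ε i ⬝ᵥ v) * (φ ⬝ᵥ e i) = 1) := by
  by_cases a : (ε i ⬝ᵥ v) * (φ ⬝ᵥ e i) + (ε j ⬝ᵥ v) * (φ ⬝ᵥ e j) = 0
  · exact .inl (by linear_combination a - (ε i ⬝ᵥ v) * (φ ⬝ᵥ e i) * h.two)
  · exact .inr ((h.tri hs hij s a).resolve_right fun b => hx (by simp [b.1]))

theorem not_three [Finite G] (hs : Sg G) {v φ : ι → K} (hv : v ≠ 0) (hφ : φ ≠ 0) (s : Tv G v φ)
    {i j m : Fin r} (hij : i ≠ j) (hmi : m ≠ i) (hmj : m ≠ j) {x : K} (hx : x ≠ 0)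
    (xi : (ε i ⬝ᵥ v) * (φ ⬝ᵥ e i) = x) (xj : (ε j ⬝ᵥ v) * (φ ⬝ᵥ e j) = x)
    (xm : (ε m ⬝ᵥ v) * (φ ⬝ᵥ e m) = x) : False := by
  have h2 := h.two
  have key : ∀ n : ℤ, φ ⬝ᵥ e i + l ^ n * φ ⬝ᵥ e j = 0 ∨
      (φ ⬝ᵥ e j * ε i ⬝ᵥ v) * (l ^ n) ^ 2 + l ^ n + ε j ⬝ᵥ v * φ ⬝ᵥ e i = 0 := fun n => by
    refine or_iff_not_imp_left.2 fun g => ?_
    have g' := mt (h.nl hs hv hφ s hij n).2 g
    have hc : l ^ n ≠ 0 := zpow_ne_zero n h.ne
    have t := h.alt hs (s.conj_tv (h.tv i j hij n)) hmi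
    simp only [dotProduct_add, add_dotProduct, sub_dotProduct, dotProduct_smul, smul_dotProduct,
      smul_eq_mul, h.ee, h.ee' hij, h.ee' hij.symm, h.ee' hmi, h.ee' hmj, h.ee' hmi.symm,
      h.ee' hmj.symm, mul_zero, add_zero, zero_add, zero_sub] at t
    generalize l ^ n = c at *
    obtain ⟨d, hd⟩ : ∃ d, c * d = 1 := ⟨c⁻¹, mul_inv_cancel₀ hc⟩
    rw [← eq_inv_of_mul_eq_one_right hd] at *
    generalize ε i ⬝ᵥ v = V1, ε j ⬝ᵥ v = V2, ε m ⬝ᵥ v = V3, φ ⬝ᵥ e i = P1, φ ⬝ᵥ e j = P2,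
      φ ⬝ᵥ e m = P3 at *
    have hV : V3 ≠ 0 := fun a => hx (by simp [← xm, a])
    have hP : P3 ≠ 0 := fun a => hx (by simp [← xm, a])
    rcases t (by simp [g, g', hV, hP]) with t | ⟨t1, t2, -⟩
    · linear_combination c * t + c * (P1 + c * P2) * (V1 + d * V2) * (xi - xm) + (V2 * P1) * hd +
        (V2 * P1) * h2
    · have : (c * P2 * V1 - x) ^ 2 = 0 := by
        linear_combination (c * P2 * V1) * t1 + (c * P2 * V1) * t2 + (V1 * P1 * V2 * P2) * hd +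
          V2 * P2 * xi + x * xj + (x ^ 2 - c * P2 * V1 * (1 + x)) * h2
      have := (pow_eq_zero_iff two_ne_zero).1 this
      exact (one_ne_zero (α := K) (by linear_combination t1 - xi - this - x * h2)).elim
  have hA : φ ⬝ᵥ e j * ε i ⬝ᵥ v ≠ 0 :=
    mul_ne_zero (fun a => hx (by simp [← xj, a])) fun a => hx (by simp [← xi, a])
  have n1 : ∀ {a b : K}, a ≠ b → φ ⬝ᵥ e i + a * φ ⬝ᵥ e j = 0 → φ ⬝ᵥ e i + b * φ ⬝ᵥ e j ≠ 0 :=
    fun ab a b => mul_ne_zero (sub_ne_zero.2 ab) (left_ne_zero_of_mul hA) (by linear_combination a - b)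
  generalize φ ⬝ᵥ e j * ε i ⬝ᵥ v = A, ε j ⬝ᵥ v * φ ⬝ᵥ e i = B at hA key
  have n2 : ∀ {a b c : K}, a ≠ b → a ≠ c → b ≠ c → A * a ^ 2 + a + B = 0 → A * b ^ 2 + b + B = 0 →
      A * c ^ 2 + c + B ≠ 0 := fun {a b c} ab ac bc ha hb hc => by
    have t1 := mul_left_cancel₀ (sub_ne_zero.2 ab) (show (a - b) * (A * (a + b) + 1) = (a - b) * 0 by
      linear_combination ha - hb)
    have t2 := mul_left_cancel₀ (sub_ne_zero.2 ac) (show (a - c) * (A * (a + c) + 1) = (a - c) * 0 by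
      linear_combination ha - hc)
    exact mul_ne_zero hA (sub_ne_zero.2 bc) (by linear_combination t1 - t2)
  have l2 : l ^ 2 ≠ 1 := fun a => h.one_ne (sub_eq_zero.1 (pow_eq_zero_iff (two_ne_zero) |>.1
    (show (l - 1) ^ 2 = 0 by linear_combination a + (1 - l) * h2)))
  have d : ∀ a b : ℕ, a < b → b ≤ 3 → l ^ a ≠ l ^ b := fun a b ab hb e' => by
    obtain ⟨c, rfl⟩ := Nat.exists_eq_add_of_lt ab
    rw [add_assoc, pow_add, eq_comm, mul_eq_left₀ (pow_ne_zero _ h.ne)] at e'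
    have : c = 0 ∨ c = 1 ∨ c = 2 := by omega
    rcases this with rfl | rfl | rfl
    exacts [h.one_ne (by simpa using e'), l2 e', h.cube e']
  have k : ∀ n : ℕ, _ := fun n => zpow_natCast l n ▸ key n
  have d01 := d 0 1 (by omega) (by omega)
  have d02 := d 0 2 (by omega) (by omega)
  have d03 := d 0 3 (by omega) (by omega)
  have d12 := d 1 2 (by omega) (by omega)
  have d13 := d 1 3 (by omega) (by omega)
  have d23 := d 2 3 (by omega) (by omega)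
  rcases k 0 with k0 | k0
  · exact n2 d12 d13 d23 ((k 1).resolve_left (n1 d01 k0)) ((k 2).resolve_left (n1 d02 k0))
      ((k 3).resolve_left (n1 d03 k0))
  rcases k 1 with k1 | k1
  · exact n2 d02 d03 d23 k0 ((k 2).resolve_left (n1 d12 k1)) ((k 3).resolve_left (n1 d13 k1))
  rcases k 2 with k2 | k2
  · exact n2 d01 d03 d13 k0 k1 ((k 3).resolve_left (n1 d23 k2))
  · exact n2 d01 d02 d12 k0 k1 k2
/-- Write `v_i = ε_i v`, `φ_i = φ e_i`, `x_i = v_i φ_i`.  `Sg.nl` with the frame transvections: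
`φ_i + c φ_j = 0 ↔ v_i + c⁻¹ v_j = 0` for `c = l ^ n`; so `φ_i = φ_j = 0 ↔ v_i = v_j = 0`.  If all `x_i = 0`
everything vanishes (three indices).  If `x_i = x ≠ 0`, by `tri` each `j ≠ i` has `x_j = x` or
`v_j = φ_j = 0`, `x = 1`.  Suppose `x_1 = x_2 = x_3 = x`.  Conjugate the frame transvection
`(e_1 + c e_2)` by `s` to `t = (e_1 + c e_2 + g v, ε_1 + c⁻¹ ε_2 + g' φ)`, `g = φ_1 + c φ_2`,
`g' = v_1 + c⁻¹ v_2`.  If `g ≠ 0` then `x_3(t) ≠ 0`; `v_1(t) = φ_1(t) = 0` gives `x + c A = 1 = x + c⁻¹ B`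
(`A = φ_2 v_1`, `B = v_2 φ_1`, `A B = x²`), so `c A = x`, absurd; hence `x_1(t) = x_3(t)`, that is
`A c² + c + B = 0`.  Among `c = 1, l, l², l³` at most one has `g = 0` and at most two are roots. -/
theorem types [Finite G] (hs : Sg G) (h3 : 3 ≤ r) {v φ : ι → K} (hv : v ≠ 0) (hφ : φ ≠ 0)
    (s : Tv G v φ) : (∀ i, ε i ⬝ᵥ v = 0 ∧ φ ⬝ᵥ e i = 0) ∨
      (∃ i, (ε i ⬝ᵥ v) * (φ ⬝ᵥ e i) = 1 ∧ ∀ j, j ≠ i → ε j ⬝ᵥ v = 0 ∧ φ ⬝ᵥ e j = 0) ∨
      ∃ i j, i ≠ j ∧ (ε i ⬝ᵥ v) * (φ ⬝ᵥ e i) = 1 ∧ (ε j ⬝ᵥ v) * (φ ⬝ᵥ e j) = 1 ∧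
        ∀ m, m ≠ i → m ≠ j → ε m ⬝ᵥ v = 0 ∧ φ ⬝ᵥ e m = 0 := by
  by_cases h0 : ∀ i, (ε i ⬝ᵥ v) * (φ ⬝ᵥ e i) = 0
  · have z := fun {i j : Fin r} (hij : i ≠ j) => h.zz hs hv hφ s hij
    have k : ∀ {i j : Fin r}, i ≠ j → ε j ⬝ᵥ v = 0 ∧ φ ⬝ᵥ e j = 0 → ε i ⬝ᵥ v = 0 ∧ φ ⬝ᵥ e i = 0 :=
      fun {i j} hij a => (mul_eq_zero.1 (h0 i)).elim (fun b => ⟨b, ((z hij).2 ⟨b, a.1⟩).1⟩)
        fun b => ⟨((z hij).1 ⟨b, a.2⟩).1, b⟩
    refine .inl fun i => ?_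
    obtain ⟨j, hj, -⟩ := h.third h3 i i
    obtain ⟨m, hm, hm'⟩ := h.third h3 i j
    rcases mul_eq_zero.1 (h0 j) with a | a <;> rcases mul_eq_zero.1 (h0 m) with b | b
    · exact k hm.symm ⟨b, ((z hm').2 ⟨b, a⟩).1⟩
    · exact (mul_eq_zero.1 (h0 i)).elim (fun c => ⟨c, ((z hj).2 ⟨a, c⟩).2⟩)
        fun c => ⟨((z hm).1 ⟨b, c⟩).2, c⟩
    · exact (mul_eq_zero.1 (h0 i)).elim (fun c => ⟨c, ((z hm).2 ⟨b, c⟩).2⟩)
        fun c => ⟨((z hj).1 ⟨a, c⟩).2, c⟩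
    · exact k hm.symm ⟨((z hm').1 ⟨b, a⟩).1, b⟩
  push Not at h0
  obtain ⟨i, hi⟩ := h0
  by_cases h1 : ∃ j, j ≠ i ∧ (ε j ⬝ᵥ v) * (φ ⬝ᵥ e j) = (ε i ⬝ᵥ v) * (φ ⬝ᵥ e i)
  · obtain ⟨j, hj, xj⟩ := h1
    have k := fun m (a : m ≠ i) (b : m ≠ j) => (h.alt hs s a.symm hi).resolve_left
      (h.not_three hs hv hφ s hj.symm a b hi rfl xj)
    obtain ⟨m, a, b⟩ := h.third h3 i j
    exact .inr (.inr ⟨i, j, hj.symm, (k m a b).2.2, xj.trans (k m a b).2.2,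
      fun m a b => ⟨(k m a b).1, (k m a b).2.1⟩⟩)
  · push Not at h1
    have k := fun m (a : m ≠ i) => (h.alt hs s a.symm hi).resolve_left (h1 m a)
    obtain ⟨m, a, -⟩ := h.third h3 i i
    exact .inr (.inl ⟨i, (k m a).2.2, fun m a => ⟨(k m a).1, (k m a).2.1⟩⟩)

omit h in
theorem out (hi : Ir G)
    (hg : ∀ N : Subgroup (GL ι K), (∀ v φ, v ≠ 0 → φ ≠ 0 → Tv G v φ → Tv N v φ) → G ≤ N)
    {U : Submodule K (ι → K)} (h0 : U ≠ ⊥)
    (hU : ∀ v φ, v ≠ 0 → φ ≠ 0 → Tv G v φ → v ∈ U ∨ ∀ w ∈ U, φ ⬝ᵥ w = 0) : U = ⊤ := by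
  refine hi.eq_top U h0 fun g a w b => (Linear.mem_subspaceStabilizer.1 (hg _ (fun v φ hv hφ s =>
    ⟨s.dot, mem_subspaceStabilizer_of_le fun x hx => ?_⟩) a) w).1 b
  rw [tvGL_mulVec]
  rcases hU v φ hv hφ s with c | c
  · exact add_mem hx (U.smul_mem _ c)
  · simpa [c x hx] using hx

/-- A transvection of the third type. -/
structure T3 (G : Subgroup (GL ι K)) (e ε : Fin r → ι → K) (z ζ : ι → K) (i j : Fin r) (a b : K) :
    Prop where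
  ne : i ≠ j
  ha : a ≠ 0
  hb : b ≠ 0
  hz : ∀ m, ε m ⬝ᵥ z = 0
  hζ : ∀ m, ζ ⬝ᵥ e m = 0
  tv : Tv G (a • e i + b • e j + z) (a⁻¹ • ε i + b⁻¹ • ε j + ζ)

variable {z ζ z' ζ' : ι → K} {i j : Fin r} {a b : K}

omit h in
theorem T3.symm (t : T3 G e ε z ζ i j a b) : T3 G e ε z ζ j i b a :=
  ⟨t.ne.symm, t.hb, t.ha, t.hz, t.hζ, by simpa only [add_comm (a • _), add_comm (a⁻¹ • _)] using t.tv⟩

theorem mv0 (t : T3 G e ε z ζ i j a b) {m : Fin r} (hi : m ≠ i) (hj : m ≠ j) (n : ℤ) :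
    T3 G e ε z ζ m j (l ^ n * a) b := by
  have hc : l ^ n ≠ 0 := zpow_ne_zero n h.ne
  refine ⟨hj, mul_ne_zero hc t.ha, t.hb, t.hz, t.hζ, ?_⟩
  have := (h.tv i m hi.symm n).conj_tv t.tv
  simp only [dotProduct_add, add_dotProduct, dotProduct_smul, smul_dotProduct, smul_eq_mul, h.ee,
    h.ee' hi, h.ee' hj, h.ee' hi.symm, h.ee' hj.symm, h.ee' t.ne, h.ee' t.ne.symm, t.hz, t.hζ,
    mul_zero, add_zero, mul_one] at this
  convert this using 1 <;> ext x <;> simp only [Pi.add_apply, Pi.sub_apply, Pi.smul_apply, smul_eq_mul]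
  · linear_combination (-a * e i x) * h.two
  · rw [mul_inv]
    linear_combination (a⁻¹ * (l ^ n)⁻¹ * ε m x) * h.two

theorem mv1 (t : T3 G e ε z ζ i j a b) {m : Fin r} (hj : m ≠ j) : T3 G e ε z ζ m j a b := by
  by_cases hi : m = i
  · exact hi ▸ t
  · simpa using h.mv0 t hi hj 0

theorem mv (h3 : 3 ≤ r) (t : T3 G e ε z ζ i j a b) {i' j' : Fin r} (hij : i' ≠ j') :
    T3 G e ε z ζ i' j' a b := by
  obtain ⟨m, m1, m2⟩ := h.third h3 j j'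
  exact h.mv1 (h.mv1 (h.mv1 t m1).symm m2.symm).symm hij

theorem sc (h3 : 3 ≤ r) (t : T3 G e ε z ζ i j a b) : T3 G e ε z ζ i j (l * a) b := by
  obtain ⟨m, m1, m2⟩ := h.third h3 i j
  simpa using h.mv1 (h.mv0 t m1 m2 1) t.ne

theorem t3 {v φ : ι → K} (s : Tv G v φ) (hij : i ≠ j) (xi : (ε i ⬝ᵥ v) * (φ ⬝ᵥ e i) = 1)
    (xj : (ε j ⬝ᵥ v) * (φ ⬝ᵥ e j) = 1) (h0 : ∀ m, m ≠ i → m ≠ j → ε m ⬝ᵥ v = 0 ∧ φ ⬝ᵥ e m = 0) :
    ∃ a b z ζ, T3 G e ε z ζ i j a b ∧ v = a • e i + b • e j + z ∧ φ = a⁻¹ • ε i + b⁻¹ • ε j + ζ := by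
  refine ⟨ε i ⬝ᵥ v, ε j ⬝ᵥ v, v - ((ε i ⬝ᵥ v) • e i + (ε j ⬝ᵥ v) • e j),
    φ - ((ε i ⬝ᵥ v)⁻¹ • ε i + (ε j ⬝ᵥ v)⁻¹ • ε j), ⟨hij, left_ne_zero_of_mul_eq_one xi,
      left_ne_zero_of_mul_eq_one xj, fun m => ?_, fun m => ?_, by simpa using s⟩, by simp, by simp⟩
  · by_cases a : m = i
    · simp [a, h.ee, h.ee' hij]
    by_cases b : m = j
    · simp [b, h.ee, h.ee' hij.symm]
    simp [h.ee' a, h.ee' b, (h0 m a b).1]
  · by_cases a : m = i
    · simp [a, h.ee, h.ee' hij.symm, eq_inv_of_mul_eq_one_right xi]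
    by_cases b : m = j
    · simp [b, h.ee, h.ee' hij, eq_inv_of_mul_eq_one_right xj]
    simp [h.ee' (Ne.symm a), h.ee' (Ne.symm b), (h0 m a b).2]

theorem li : LinearIndependent K e := Fintype.linearIndependent_iff.2 fun g hg i => by
  simpa [dotProduct_sum, h.dual] using congrArg (ε i ⬝ᵥ ·) hg

theorem rank : finrank K (Submodule.span K (Set.range e)) = r := by
  rw [finrank_span_eq_card h.li, Fintype.card_fin]

omit h in
theorem kill {φ : ι → K} (a : ∀ m, φ ⬝ᵥ e m = 0) : Submodule.span K (Set.range e) ≤ dotKer φ :=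
  Submodule.span_le.2 (by rintro _ ⟨m, rfl⟩; exact a m)

theorem notMem (hz : ∀ m, ε m ⬝ᵥ z = 0) (h0 : z ≠ 0) : z ∉ Submodule.span K (Set.range e) :=
  fun a => by
  obtain ⟨c, rfl⟩ := (Submodule.mem_span_range_iff_exists_fun K).1 a
  exact h0 (Finset.sum_eq_zero fun m _ => by
    rw [show c m = 0 by simpa [dotProduct_sum, h.dual] using hz m, zero_smul])

theorem ζ_ne (hs : Sg G) (h3 : 3 ≤ r) (t : T3 G e ε z ζ i j a b) (h0 : z ≠ 0) : ζ ≠ 0 := by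
  rintro rfl
  have t' := (h.sc h3 (h.sc h3 t).symm).symm.tv
  have n1 : a • e i + b • e j + z ≠ 0 := fun c => t.ha (by
    simpa [h.ee, h.ee' t.ne, t.hz] using congrArg (ε i ⬝ᵥ ·) c)
  have n2 : a⁻¹ • ε i + b⁻¹ • ε j + 0 ≠ 0 := fun c => t.ha (by
    simpa [h.ee, h.ee' t.ne.symm] using congrArg (· ⬝ᵥ e i) c)
  have hl := h.ne
  have t'' : Tv G (a • e i + b • e j + l⁻¹ • z) (a⁻¹ • ε i + b⁻¹ • ε j + 0) := by
    have e1 : (l * a)⁻¹ • ε i + (l * b)⁻¹ • ε j + 0 = l⁻¹ • (a⁻¹ • ε i + b⁻¹ • ε j + 0) := by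
      simp [smul_smul, mul_comm]
    rw [e1] at t'
    convert t'.smul_swap' (by simpa only [smul_dotProduct, smul_eq_zero_iff_right (inv_ne_zero hl)]
      using t'.dot) using 1
    simp [smul_smul, hl]
  have := hs.ax n1 (fun c => t.ha (by
    simpa [h.ee, h.ee' t.ne, t.hz] using congrArg (ε i ⬝ᵥ ·) c)) n2 t.tv t''
  rw [add_right_inj] at this
  exact h.one_ne (inv_eq_one.1 (smul_left_injective K h0 (this.trans (one_smul K z).symm)))

theorem z_eq [Finite G] (hs : Sg G) (h3 : 3 ≤ r) (h5 : Fintype.card ι ≤ 5) (hi : Ir G)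
    (hg : ∀ N : Subgroup (GL ι K), (∀ v φ, v ≠ 0 → φ ≠ 0 → Tv G v φ → Tv N v φ) → G ≤ N)
    (hn : ∀ v φ i, Tv G v φ → (ε i ⬝ᵥ v) * (φ ⬝ᵥ e i) = 1 →
      ¬ ∀ j, j ≠ i → ε j ⬝ᵥ v = 0 ∧ φ ⬝ᵥ e j = 0) (t : T3 G e ε z ζ i j a b) : z = 0 := by
  by_contra h0
  have hζ := h.ζ_ne hs h3 t h0
  have ζz : ζ ⬝ᵥ z = 0 := by
    have := t.tv.dot
    simp only [dotProduct_add, add_dotProduct, dotProduct_smul, smul_dotProduct, smul_eq_mul, h.ee,
      h.ee' t.ne, h.ee' t.ne.symm, t.hz, t.hζ, mul_zero, add_zero, zero_add, mul_one,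
      mul_inv_cancel₀ t.ha, mul_inv_cancel₀ t.hb] at this
    linear_combination this - h.two
  set Y := Submodule.span K (Set.range e)
  set U := Y ⊔ Submodule.span K {z}
  have eU : ∀ m, e m ∈ U := fun m => Submodule.mem_sup_left (Submodule.subset_span ⟨m, rfl⟩)
  have zU : z ∈ U := Submodule.mem_sup_right (Submodule.mem_span_singleton_self z)
  have kU : ∀ {φ : ι → K}, (∀ m, φ ⬝ᵥ e m = 0) → φ ⬝ᵥ z = 0 → U ≤ dotKer φ := fun a b =>
    sup_le (kill a) ((Submodule.span_singleton_le_iff_mem _ _).2 b)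
  have kζ : dotKer ζ < ⊤ := lt_top_iff_ne_top.2 fun c => hζ (by
    ext x; simpa using show ζ ⬝ᵥ Pi.single x 1 = 0 from (c ▸ trivial : _ ∈ dotKer ζ))
  obtain ⟨z', ζ', i', j', a', b', t', hz'⟩ :
      ∃ z' ζ' i' j' a' b', T3 G e ε z' ζ' i' j' a' b' ∧ z' ∉ U := by
    by_contra hc
    push Not at hc
    refine ((kU t.hζ ζz).trans_lt kζ).ne (out hi hg (fun c => h0 (by simpa [c] using zU))
      fun v φ hv hφ s => ?_)
    rcases h.types hs h3 hv hφ s with c | ⟨m, c, d⟩ | ⟨m, n, mn, c, d, f⟩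
    · refine or_iff_not_imp_right.2 fun d => ?_
      have φz : φ ⬝ᵥ z ≠ 0 := fun f => d (kU (fun m => (c m).2) f)
      have := hc (z + (φ ⬝ᵥ z) • v) (ζ - (ζ ⬝ᵥ v) • φ) i j a b ⟨t.ne, t.ha, t.hb,
        fun m => by simp [t.hz, (c m).1], fun m => by simp [t.hζ, (c m).2], by
          simpa [c, add_assoc, add_sub_assoc] using s.conj_tv t.tv⟩
      exact (U.smul_mem_iff φz).1 ((U.add_mem_iff_right zU).1 this)
    · exact absurd d (hn v φ m s c)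
    · obtain ⟨a', b', z', ζ', t', rfl, -⟩ := h.t3 s mn c d f
      exact .inl (add_mem (add_mem (U.smul_mem _ (eU m)) (U.smul_mem _ (eU n))) (hc _ _ _ _ _ _ t'))
  have ζz' : ζ ⬝ᵥ z' ≠ 0 := fun c => by
    have h1 : Y < U := left_lt_sup.2 fun d => h.notMem t.hz h0
      ((Submodule.span_singleton_le_iff_mem _ _).1 d)
    have h2 : U < dotKer ζ := (kU t.hζ ζz).lt_of_ne fun d => hz' (d ▸ c)
    have h3' := Submodule.finrank_lt_finrank_of_lt h1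
    have h4 := Submodule.finrank_lt_finrank_of_lt h2
    have h5 := Submodule.finrank_lt_finrank_of_lt kζ
    rw [finrank_top, finrank_fintype_fun_eq_card] at h5
    rw [h.rank] at h3'
    omega
  obtain ⟨m, m1, m2⟩ := h.third h3 i j
  obtain ⟨μ, t', g⟩ : ∃ μ, T3 G e ε z' ζ' i m μ b' ∧ a * μ⁻¹ + ζ' ⬝ᵥ z ≠ 0 := by
    have t1 := h.mv h3 t' m1.symm
    by_cases c : a * a'⁻¹ + ζ' ⬝ᵥ z = 0
    · refine ⟨_, h.sc h3 t1, fun d => h.one_ne ?_⟩
      have := (mul_left_cancel₀ t.ha (add_right_cancel (c.trans d.symm)))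
      rw [_root_.inv_inj] at this
      exact (mul_eq_right₀ t'.ha).1 this.symm
    · exact ⟨_, t1, c⟩
  have s := t'.tv.conj_tv t.tv
  simp only [dotProduct_add, add_dotProduct, dotProduct_smul, smul_dotProduct, smul_eq_mul, h.ee,
    h.ee' t.ne, h.ee' t.ne.symm, h.ee' m1, h.ee' m2, h.ee' m1.symm, h.ee' m2.symm, t.hz, t.hζ, t'.hz,
    t'.hζ, mul_zero, add_zero, zero_add, mul_one] at s
  generalize hv : a • e i + b • e j + z + _ = v at s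
  generalize hφ : a⁻¹ • ε i + b⁻¹ • ε j + ζ - _ = φ at s
  have vj : ε j ⬝ᵥ v ≠ 0 := by simpa [← hv, h.ee, h.ee' t.ne.symm, h.ee' m2.symm, t.hz, t'.hz] using t.hb
  have vm : ε m ⬝ᵥ v ≠ 0 := by
    simpa [← hv, h.ee, h.ee' m1, h.ee' m2, t.hz, t'.hz] using ⟨g, t'.hb⟩
  have φi : φ ⬝ᵥ e i ≠ 0 := by
    simp only [← hφ, add_dotProduct, sub_dotProduct, smul_dotProduct, smul_eq_mul, h.ee,
      h.ee' t.ne.symm, h.ee' m1, t.hζ, t'.hζ, mul_zero, add_zero, mul_one]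
    exact fun c => mul_ne_zero ζz' (inv_ne_zero t'.ha) (by
      linear_combination -c - a⁻¹ * mul_inv_cancel₀ t'.ha)
  rcases h.types hs h3 (fun c => vj (by simp [c])) (fun c => φi (by simp [c])) s with
    c | ⟨n, c, d⟩ | ⟨p, q, pq, -, -, f⟩
  · exact vj (c j).1
  · exact hn v φ n s c d
  · have k : ∀ n, ε n ⬝ᵥ v ≠ 0 ∨ φ ⬝ᵥ e n ≠ 0 → n = p ∨ n = q := fun n c => by
      by_contra d
      push Not at d
      exact c.elim (· (f n d.1 d.2).1) (· (f n d.1 d.2).2)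
    have := t.ne
    rcases k i (.inr φi) with rfl | rfl <;> rcases k j (.inl vj) with rfl | rfl <;>
      rcases k m (.inl vm) with rfl | rfl <;> contradiction
/-- Downward induction on `r ≤ n` (`e` is linearly independent): by `ext` the second type does not
occur.  Conjugation by `(e_i + c e_j)` sends `(v_i, v_j)` to `(c⁻¹ v_j, c v_i)`, `(φ_i, φ_j)` to
`(c φ_j, c⁻¹ φ_i)` and keeps the parts `z = v - Σ v_i e_i`, `ζ = φ - Σ φ_i ε_i`; so a coordinate of a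
transvection of the third type can be multiplied by `l` (use an index outside the support) and the
support can be moved.  Let `Y = span e`.  Suppose `s` of the third type has `z ≠ 0`.  If `ζ = 0`,
multiply both coordinates by `l`: `(l u + z, l⁻¹ φ)`, against `Sg.ax` after rescaling.  So `ζ ≠ 0 = ζ z`.
If `z' ∉ Y + K z` lies in all `ker ε_i` then `ζ z' ≠ 0` (else `e, z, z'` are `≥ 5` independent vectors
killed by `ζ`).  `Y + K z ≠ ⊤` (killed by `ζ`), so it is not invariant: some transvection `s'` has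
`z' ∉ K z` and `φ'` non-zero on `Y + K z`.  If `s'` has the first type replace it by the conjugate of
`s` under `s'`.  Move the supports to `{1, 2}` and `{1, 3}`, with `v'_1 = μ` such that
`g = φ' v = μ⁻¹ v_1 + ζ' z ≠ 0`.  The conjugate `t = (v + g v', φ + g' φ')` has non-zero coordinates `2`,
`3`, so `φ_1(t) = μ⁻¹ ζ(z') = 0`, absurd.  Hence `z = 0` always, `Y` is invariant, `r = n`, the first
type does not occur: `mono_false`. -/
theorem false [Finite G] (hs : Sg G) (h3 : 3 ≤ r) (h5 : Fintype.card ι ≤ 5) (hi : Ir G)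
    (hp : ⁅G, G⁆ = G)
    (hg : ∀ N : Subgroup (GL ι K), (∀ v φ, v ≠ 0 → φ ≠ 0 → Tv G v φ → Tv N v φ) → G ≤ N) :
    False := by
  obtain ⟨d, hd⟩ : ∃ d, Fintype.card ι < r + d := ⟨Fintype.card ι, by omega⟩
  induction d generalizing r with
  | zero =>
    have := h.li.fintype_card_le_finrank
    rw [finrank_fintype_fun_eq_card, Fintype.card_fin] at this
    omega
  | succ d ih =>
  have hn : ∀ v φ i, Tv G v φ → (ε i ⬝ᵥ v) * (φ ⬝ᵥ e i) = 1 →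
      ¬ ∀ j, j ≠ i → ε j ⬝ᵥ v = 0 ∧ φ ⬝ᵥ e j = 0 := fun v φ i s a b => by
    obtain ⟨e', ε', h'⟩ := h.ext (by omega) s a b
    exact ih h' (by omega) (by omega)
  obtain ⟨i, -⟩ := h.third h3 ⟨0, by omega⟩ ⟨0, by omega⟩
  obtain ⟨j, hj, -⟩ := h.third h3 i i
  have eY : ∀ m, e m ∈ Submodule.span K (Set.range e) := fun m => Submodule.subset_span ⟨m, rfl⟩
  have hY : Submodule.span K (Set.range e) = ⊤ := by
    refine out hi hg (fun c => h.li.ne_zero i (by simpa [c] using eY i)) fun v φ hv hφ s => ?_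
    rcases h.types hs h3 hv hφ s with c | ⟨m, c, d⟩ | ⟨m, n, mn, c, d, f⟩
    · exact .inr (kill fun m => (c m).2)
    · exact absurd d (hn v φ m s c)
    · obtain ⟨a', b', z', ζ', t', rfl, -⟩ := h.t3 s mn c d f
      rw [h.z_eq hs h3 h5 hi hg hn t', add_zero]
      exact .inl (add_mem (Submodule.smul_mem _ _ (eY m)) (Submodule.smul_mem _ _ (eY n)))
  have hr := h.rank
  rw [hY, finrank_top, finrank_fintype_fun_eq_card] at hr
  refine mono_false h.two hp hg hr.symm h.dual ⟨_, _, fun c => ?_, fun c => ?_, h.tv j i hj 0⟩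
    fun v φ hv hφ s => ?_
  · simpa [h.ee, h.ee' hj] using congrArg (ε j ⬝ᵥ ·) c
  · simpa [h.ee, h.ee' hj.symm] using congrArg (· ⬝ᵥ e j) c
  rcases h.types hs h3 hv hφ s with c | ⟨m, c, d⟩ | ⟨m, n, mn, c, d, f⟩
  · refine absurd ?_ hφ
    ext x
    simpa using show φ ⬝ᵥ Pi.single x 1 = 0 from kill (fun m => (c m).2) (hY ▸ trivial)
  · exact absurd d (hn v φ m s c)
  · exact ⟨m, n, mn, c, f⟩

end Fr

theorem MonF.dot (f : F →+* K) (φ v : ι → F) : (f ∘ φ) ⬝ᵥ (f ∘ v) = f (φ ⬝ᵥ v) :=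
  (RingHom.map_dotProduct f φ v).symm

theorem MonF.map_tv (f : F →+* K) {v φ : ι → F} (h : φ ⬝ᵥ v = 0) :
    GeneralLinearGroup.map f (tvGL v φ h) = tvGL (f ∘ v) (f ∘ φ) (by rw [MonF.dot, h, map_zero]) := by
  ext i j
  by_cases e : i = j <;> simp [tvGL_coe, vecMulVec_apply, Matrix.one_apply, e]

theorem MonF.ne (f : F →+* K) {v : ι → F} (h : v ≠ 0) : f ∘ v ≠ 0 := fun e =>
  h (funext fun i => f.injective (by simpa using congrFun e i))

theorem MonF.prop (f : F →+* K) {v w : ι → F} {c d : K} (hd : d ≠ 0) (h0 : c • (f ∘ v) ≠ 0)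
    (h : c • (f ∘ v) = d • (f ∘ w)) : ∃ a : F, w = a • v ∧ c = d * f a := by
  obtain ⟨i, hi⟩ := Function.ne_iff.1 (right_ne_zero_of_smul h0)
  have k := fun j => congrFun h j
  simp only [Pi.smul_apply, Function.comp_apply, smul_eq_mul, Pi.zero_apply] at k hi
  have hc : c = d * f (w i / v i) := by rw [map_div₀, ← mul_div_assoc, ← k, mul_div_cancel_right₀ _ hi]
  refine ⟨w i / v i, funext fun j => f.injective (mul_left_cancel₀ hd ?_), hc⟩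
  rw [← k, Pi.smul_apply, smul_eq_mul, map_mul, ← mul_assoc, ← hc]

theorem MonF.sg (f : F →+* K) (hs : Sg P) : Sg (P.map (GeneralLinearGroup.map f)) := by
  constructor
  · intro v φ ψ hv hφ hψ h1 h2
    obtain ⟨v₀, φ₀, c, hc, t, rfl, rfl⟩ := tv_map f hv hφ h1
    obtain ⟨v₁, ψ₁, d, hd, t', e, rfl⟩ := tv_map f hv hψ h2
    obtain ⟨a, rfl, rfl⟩ := MonF.prop f hd hv e
    have ha : a ≠ 0 := fun b => hc (by simp [b])
    rw [← hs.cen (fun b => hv (by ext; simp [b])) (fun b => hφ (by ext; simp [b]))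
      (smul_ne_zero ha fun b => hψ (by ext; simp [b])) t (t'.of_smul_left ha)]
    ext x
    simp [ha, mul_assoc, mul_left_comm]
  · intro v w φ hv hw hφ h1 h2
    obtain ⟨v₀, φ₀, c, hc, t, rfl, rfl⟩ := tv_map f hv hφ h1
    obtain ⟨v₁, ψ₁, d, hd, t', rfl, e⟩ := tv_map f hw hφ h2
    obtain ⟨a, rfl, e'⟩ := MonF.prop f (inv_ne_zero hd) hφ e
    have ha : a ≠ 0 := fun b => hc (by simpa [b] using e')
    rw [← hs.ax (fun b => hv (by ext; simp [b])) (smul_ne_zero ha fun b => hw (by ext; simp [b]))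
      (fun b => hφ (by ext; simp [b])) t (t'.smul_swap' (by simpa [ha] using t'.dot)),
      ← inv_inv c, e']
    ext x
    simp [ha, mul_assoc, mul_left_comm]

theorem MonF.env_top (f : F →+* K) (h : env P = ⊤) : env (P.map (GeneralLinearGroup.map f)) = ⊤ := by
  have k : ∀ X ∈ env P, X.map f ∈ env (P.map (GeneralLinearGroup.map f)) := fun X hX => by
    induction hX using Algebra.adjoin_induction with
    | mem x hx =>
      obtain ⟨g, hg, rfl⟩ := hx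
      exact Algebra.subset_adjoin ⟨_, Subgroup.mem_map_of_mem _ hg, rfl⟩
    | algebraMap r =>
      have : (algebraMap F (Matrix ι ι F) r).map f = algebraMap K _ (f r) := by
        ext i j
        by_cases e : i = j <;> simp [Matrix.algebraMap_matrix_apply, e]
      rw [this]
      exact Subalgebra.algebraMap_mem _ _
    | add x y _ _ hx hy => rw [Matrix.map_add _ (map_add f)]; exact add_mem hx hy
    | mul x y _ _ hx hy => rw [Matrix.map_mul]; exact mul_mem hx hy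
  refine eq_top_iff.2 fun X _ => ?_
  rw [Matrix.matrix_eq_sum_single X]
  refine sum_mem fun i _ => sum_mem fun j _ => ?_
  have := Subalgebra.smul_mem _ (k (Matrix.single i j 1) (h ▸ trivial)) (X i j)
  rwa [Matrix.map_single, map_one, Matrix.smul_single, smul_eq_mul, mul_one] at this
/-- If some `τ ∉ {0, 1}`: either `re_of_pair` applies, or pass to `G = P.map f` over the algebraic
closure (`Sg`, `Ir` from `env P = ⊤`, perfectness and generation are inherited through `tv_map`);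
`fr_two`, `tri`, `ext` give a frame with `r = 3`, against `Fr.false`. -/
theorem Hyp.fam_two [Finite F] (h : Hyp P) (h2 : (2 : F) = 0) (h0 : Fam0 P ⊥) (hs : Sg P)
    (h5 : Fintype.card ι ≤ 5) : Fam P ⊥ ∨ Re P := by
  refine or_iff_not_imp_right.2 fun hr => ⟨h0, fun {x ξ y η} fx fy => by_contra fun hτ => ?_⟩
  have e0 : (ξ ⬝ᵥ y) * (η ⬝ᵥ x) ≠ 0 := fun e => hτ (e ▸ zero_mem _)
  have e1 : (ξ ⬝ᵥ y) * (η ⬝ᵥ x) ≠ 1 := fun e => hτ (e ▸ one_mem _)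
  refine hr (h0.re_of_pair fx fy (left_ne_zero_of_mul e0) (right_ne_zero_of_mul e0)
    fun v φ fv => by_contra fun hd => ?_)
  let f := algebraMap F (AlgebraicClosure F)
  have up : ∀ {v φ}, Tv P v φ → Tv (P.map (GeneralLinearGroup.map f)) (f ∘ v) (f ∘ φ) :=
    fun t => ⟨_, MonF.map_tv f t.dot ▸ Subgroup.mem_map_of_mem _ t.2⟩
  have : Finite (P.map (GeneralLinearGroup.map f)) := (Set.toFinite _).image _
  have hs' := MonF.sg f hs
  obtain ⟨l, e, ε, fr, k⟩ := fr_two (by rw [← map_ofNat f 2, h2, map_zero]) (up fx.tv) (up fy.tv)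
    (by simpa only [MonF.dot, ← map_mul, map_ne_zero] using e0)
    (by simpa only [MonF.dot, ← map_mul, Ne, map_eq_one_iff f f.injective] using e1)
  have hδ : (ε 0 ⬝ᵥ (f ∘ v)) * ((f ∘ φ) ⬝ᵥ e 0) + (ε 1 ⬝ᵥ (f ∘ v)) * ((f ∘ φ) ⬝ᵥ e 1) ≠ 0 := fun a => by
    have := k (f ∘ v) (f ∘ φ)
    simp only [a, mul_zero, MonF.dot, ← map_mul, ← map_add, eq_comm (a := (0 : AlgebraicClosure F)),
      map_eq_zero] at this
    exact hd this
  obtain ⟨e', ε', fr'⟩ : ∃ e' ε' : Fin 3 → ι → AlgebraicClosure F, Fr _ l e' ε' := by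
    rcases fr.tri hs' zero_ne_one (up fv.tv) hδ with ⟨a, b, c⟩ | ⟨a, b, c⟩
    · exact fr.ext le_rfl (up fv.tv) c (by simp [Fin.forall_fin_two, a, b])
    · exact fr.ext le_rfl (up fv.tv) c (by simp [Fin.forall_fin_two, a, b])
  refine fr'.false hs' le_rfl h5 (ir_of_env (MonF.env_top f h.env))
    (by rw [← Subgroup.map_commutator, h.perf]) fun N hN => Subgroup.map_le_iff_le_comap.2
      (h0.gen _ fun v φ fv => ⟨fv.dot, ?_⟩)
  rw [Subgroup.mem_comap, MonF.map_tv]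
  exact (hN _ _ (MonF.ne f fv.1) (MonF.ne f fv.2.1) (up fv.tv)).2

end Cfsg.Lib.TVn
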