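import Cfsg.Agent.Lib.TVn.Span

/-!
# Transvection groups in characteristic two: two axes through a centre
-/

set_option autoImplicit false

namespace Cfsg.Lib.TVn

open scoped MatrixGroups Matrix commutatorElement
open Cfsg.Geo Cfsg.Lib.Asch Cfsg.Lib.Linear Module Matrix

variable {ι : Type} [Fintype ι] [DecidableEq ι] {F : Type*} [Field F] {P : Subgroup (GL ι F)}
  {k : Subfield F}

omit [DecidableEq ι] in
theorem mul2_dim (h4 : 4 ≤ Fintype.card ι) (a b c : ι → F) : ∃ y : ι → F, y ≠ 0 ∧ y ⬝ᵥ a = 0 ∧ y ⬝ᵥ b = 0 ∧ y ⬝ᵥ c = 0 := by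
  obtain ⟨z, hz⟩ : ∃ z, z ∉ Submodule.span F (Set.range ![a, b, c]) := by
    by_contra! k
    have := finrank_le_of_span_eq_top (eq_top_iff.2 fun z _ => k z)
    simp at this
    omega
  obtain ⟨y, h1, h2⟩ := exists_dot_of_notMem hz
  exact ⟨y, fun e => by simp [e] at h2, h1 _ (Submodule.subset_span ⟨0, rfl⟩), h1 _ (Submodule.subset_span ⟨1, rfl⟩),
    h1 _ (Submodule.subset_span ⟨2, rfl⟩)⟩

theorem mul2_J [Finite F] (hr : R2 P) {v φ w ξ : ι → F} (f1 : Fl P k v φ) (f2 : Fl P k w ξ) (a : φ ⬝ᵥ w ≠ 0) (b : ξ ⬝ᵥ v ≠ 0) :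
    ∃ γ : F, γ ≠ 0 ∧ (∀ χ, Tv P v χ → Tv P w ((χ ⬝ᵥ w / φ ⬝ᵥ w) • ξ + γ • (χ - (χ ⬝ᵥ w / φ ⬝ᵥ w) • φ))) ∧
      ∀ η, Tv P w η → Tv P v ((η ⬝ᵥ v / ξ ⬝ᵥ v) • φ + γ⁻¹ • (η - (η ⬝ᵥ v / ξ ⬝ᵥ v) • ξ)) := by
  obtain ⟨g, hg, γ, h0, e, fix, hW⟩ := f2.tv.exists_swap f1.tv a b
  have T := fun ρ => Tv.transport (ρ := ρ) hg e fix hW a b f1.dot f2.dot
  obtain ⟨μ, hμ⟩ := (T 0 (zero_dotProduct _) (zero_dotProduct _)).2
  have e' : (g⁻¹).1 *ᵥ w = γ⁻¹ • v := by rw [eq_inv_smul_iff₀ h0, ← mulVec_smul, ← e, GL_inv_mulVec_mulVec]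
  have bk : ∀ {η ψ}, Tv P w η → (∀ x, ψ ⬝ᵥ x = η ⬝ᵥ g.1 *ᵥ x) → Tv P v (γ⁻¹ • ψ) := fun t k =>
    Tv.of_smul_left (inv_ne_zero h0) (e' ▸ t.conj' (inv_mem hg) fun x => by rw [k, GL_mulVec_inv_mulVec])
  have m : μ = γ := by
    have := bk (ψ := μ • φ) f2.tv fun x => by rw [hμ, smul_dotProduct, smul_eq_mul]
    rw [smul_smul] at this
    rcases hr f1.1 f1.2.1 f1.tv this with k | k
    · obtain ⟨x, hx⟩ := exists_dot_eq_one f2.2.1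
      have := hμ ((g⁻¹).1 *ᵥ x)
      rw [GL_mulVec_inv_mulVec, dotProduct_comm, hx, (mul_eq_zero.1 k).resolve_left (inv_ne_zero h0), zero_mul] at this
      exact absurd this one_ne_zero
    · exact ((inv_mul_eq_one₀ h0).1 k).symm
  subst m
  refine ⟨μ, h0, fun χ t => ?_, fun η t => ?_⟩
  · have k := (T (χ - (χ ⬝ᵥ w / φ ⬝ᵥ w) • φ) (by simp [a]) (by simp [t.dot, f1.dot])).1
    have := Tv.of_smul_left h0 (e ▸ t.conj' hg (ψ := (μ⁻¹ * (χ ⬝ᵥ w / φ ⬝ᵥ w)) • ξ + (χ - (χ ⬝ᵥ w / φ ⬝ᵥ w) • φ)) fun x => by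
      rw [add_dotProduct, k, smul_dotProduct, hμ, sub_dotProduct, smul_dotProduct, smul_eq_mul, smul_eq_mul]
      field_simp
      ring)
    rwa [smul_add, smul_smul, mul_inv_cancel_left₀ h0] at this
  · have k := (T (η - (η ⬝ᵥ v / ξ ⬝ᵥ v) • ξ) (by simp [t.dot, f2.dot]) (by simp [b])).1
    have := bk (ψ := (μ * (η ⬝ᵥ v / ξ ⬝ᵥ v)) • φ + (η - (η ⬝ᵥ v / ξ ⬝ᵥ v) • ξ)) t fun x => by
      rw [add_dotProduct, ← k, smul_dotProduct, sub_dotProduct, smul_dotProduct, hμ, smul_eq_mul, smul_eq_mul]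
      ring
    rwa [smul_add, smul_smul, inv_mul_cancel_left₀ h0] at this

/-- Suppose `ψ ↦ ψ w` is injective on `Φ = {ψ | Tv P v ψ}` (finite, additive, spans `v^⊥` of
dimension `≥ 3` by `span`).  Take `ξ ∈ Φ_w` with `ξ v ≠ 0` (`span` at `w`).  For `0 ≠ φ ∈ Φ` let `g` be
the element of `Tv.exists_swap` (`g v = c_φ w`); `R2` and `Tv.transport` show that conjugation is the
bijection `J_φ : Φ → Φ_w`, `χ ↦ (χ w / φ w) ξ + c_φ (χ - (χ w / φ w) φ)`.  Fix `φ₁`, let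
`s χ = χ w / φ₁ w`, `Γ χ = χ - s(χ) φ₁`.  For `φ ≠ 0` and `χ'` let `χ = J_φ⁻¹ J_{φ₁} χ'`; evaluating at `v`,
`s χ = s φ · s χ'`, and `Γ χ = s(χ') Γ φ + κ_φ Γ χ'` with `κ_φ = c_{φ₁} / c_φ`.  As `s` is injective,
`(s φ' + κ_φ') Γ φ = (s φ + κ_φ) Γ φ'` for all non-zero `φ, φ'`.  If `s φ₀ ≠ κ_{φ₀}` for some `φ₀`, then `Φ` lies in
the span of `φ₁, Γ φ₀`.  Otherwise `Γ χ = 0` when `s χ = (s φ)²`; squaring is an injective self-map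
of the finite set `s Φ`, so `Γ = 0` and `Φ` lies in the span of `φ₁`. -/
theorem Fam0.exists_ker [Finite F] (h2 : (2 : F) = 0) (h : Fam0 P ⊥) (hr : R2 P)
    (h4 : 4 ≤ Fintype.card ι) {x ξ ξ' : ι → F} (h1 : Fl P ⊥ x ξ) (h1' : Fl P ⊥ x ξ')
    (hn : ∀ c : F, ξ' ≠ c • ξ) {v φ w χ : ι → F} (f1 : Fl P ⊥ v φ) (f2 : Fl P ⊥ w χ) :
    ∃ ψ, Fl P ⊥ v ψ ∧ ψ ⬝ᵥ w = 0 := by
  by_contra! n
  have inj : ∀ {a b}, Tv P v a → Tv P v b → a ⬝ᵥ w = b ⬝ᵥ w → a = b := fun ta tb e => sub_eq_zero.1 (by_contra fun k =>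
    n _ (fl_bot f1.1 k (ta.sub_right tb)) (by rw [sub_dotProduct, e, sub_self]))
  have p1 := n φ f1
  obtain ⟨ρ, r1, r2⟩ := exists_dot_of_notMem_span (u := w) (v := v) fun m => by
    obtain ⟨c, e⟩ := Submodule.mem_span_singleton.1 m
    have := f1.dot
    rw [← e, dotProduct_smul, smul_eq_zero] at this
    exact this.elim (fun k => f1.1 (by rw [← e, k, zero_smul])) p1
  obtain ⟨η, fη, q⟩ := span_ex (h.span h1 h1' hn f2 r1) (r2 ▸ one_ne_zero)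
  obtain ⟨γ, γ0, J, -⟩ := mul2_J hr f1 fη p1 q
  have K : ∀ a, Fl P ⊥ v a → ∃ κ : F, ∀ b, Tv P v b → Tv P v ((b ⬝ᵥ w / φ ⬝ᵥ w) • a + κ • (b - (b ⬝ᵥ w / φ ⬝ᵥ w) • φ)) := fun a fa => by
    obtain ⟨δ, δ0, -, J'⟩ := mul2_J hr fa fη (n a fa) q
    refine ⟨δ⁻¹ * γ, fun b tb => ?_⟩
    have := J' _ (J b tb)
    rwa [add_dotProduct, smul_dotProduct, smul_dotProduct, sub_dotProduct, smul_dotProduct, tb.dot, f1.dot, smul_zero, sub_zero,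
      smul_zero, add_zero, smul_eq_mul, mul_div_cancel_right₀ _ q, add_sub_cancel_left, smul_smul] at this
  choose! κ hκ using K
  obtain ⟨θ, hθ⟩ : ∃ θ, ∀ a, Fl P ⊥ v a → a ∈ Submodule.span F {φ, θ} := by
    by_cases e : ∀ a, Fl P ⊥ v a → κ a = a ⬝ᵥ w / φ ⬝ᵥ w
    · refine ⟨φ, fun a fa => ?_⟩
      have := hκ a fa a fa.tv
      rw [e a fa, smul_sub, ← add_sub_assoc, ← two_smul F, h2, zero_smul, zero_sub, smul_smul] at this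
      rcases hr f1.1 f1.2.1 f1.tv (by simpa using this.neg_right) with k | k
      · exact absurd (mul_self_eq_zero.1 k) (div_ne_zero (n a fa) p1)
      · have : a ⬝ᵥ w / φ ⬝ᵥ w = 1 := sub_eq_zero.1 (pow_eq_zero_iff two_ne_zero |>.1
          (show (a ⬝ᵥ w / φ ⬝ᵥ w - 1) ^ 2 = 0 by linear_combination k + (1 - a ⬝ᵥ w / φ ⬝ᵥ w) * h2))
        rw [inj fa.tv f1.tv ((div_eq_one_iff_eq p1).1 this)]
        exact Submodule.subset_span (by simp)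
    push Not at e
    obtain ⟨b, fb, e⟩ := e
    refine ⟨b, fun a fa => ?_⟩
    have := inj (hκ a fa b fb.tv) (hκ b fb a fa.tv) (by
      simp only [add_dotProduct, smul_dotProduct, sub_dotProduct, smul_eq_mul]
      field_simp
      ring)
    have e' := sub_ne_zero.2 e.symm
    refine Submodule.mem_span_pair.2 ⟨(b ⬝ᵥ w / φ ⬝ᵥ w - κ b)⁻¹ * (κ a * (b ⬝ᵥ w / φ ⬝ᵥ w) - κ b * (a ⬝ᵥ w / φ ⬝ᵥ w)),
      (b ⬝ᵥ w / φ ⬝ᵥ w - κ b)⁻¹ * (a ⬝ᵥ w / φ ⬝ᵥ w - κ a), ?_⟩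
    rw [mul_smul, mul_smul, ← smul_add, inv_smul_eq_iff₀ e']
    linear_combination (norm := module) -this
  obtain ⟨σ, hσ⟩ := exists_dot_eq_one f1.1
  obtain ⟨y, y0, y1, y2, y3⟩ := mul2_dim h4 φ θ σ
  obtain ⟨z, hz⟩ := exists_dot_eq_one y0
  obtain ⟨a, fa, k⟩ := span_ex (w := y) (h.span h1 h1' hn f1 (ρ := z - (z ⬝ᵥ v) • σ) (by simp [hσ]))
    (by simp [hz, dotProduct_comm σ, y3])
  obtain ⟨s, t, rfl⟩ := Submodule.mem_span_pair.1 (hθ a fa)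
  exact k (by simp [dotProduct_comm φ, dotProduct_comm θ, y1, y2])

/-- All `2`-cycles lie in `𝔽₂`: for flags `(v, φ)`, `(w, χ)` and `ψ` from `exists_ker`, `Tv.comm_right`
twice gives `Tv P v (φ(w) χ(v) ψ)`.  Normalise: `O` consists of the flags `(x, φ)` and the flags `(w, χ)`
with `w ∉ F x` and `Φ_x(w) ⊆ {0, 1}` (then `= {0, 1}`, and `Φ_w(x) ⊆ {0, 1}`); every flag is a rescaling
of a member of `O`.  For normalised `w, w'`: (i) if some `ψ ∈ Φ_x` has `ψ w = 0`, `ψ w' = 1` then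
`ψ ∈ Φ_w`; for `χ' ∈ Φ_{w'}` with `χ' w ≠ 0` we get `χ' w = 1`, so `Φ_w(w') ⊆ {0, 1}`.  (ii) Otherwise
every `ρ` killing `x, w` kills `w'` (`Φ_x` spans `x^⊥`), `w' = w + μ x`; for a normalised centre
`z ∉ ⟨x, w⟩` case (i) applies to `(z, w)`, `(z, w')`, so `μ = ζ w' - ζ w ∈ 𝔽₂` for `ζ ∈ Φ_z` with `ζ x = 1`.
`trace_mem` gives `⊥ = ⊤`; finish with `Fam0.sl_le`. -/
theorem Fam0.sl_le_two [Finite F] (h2 : (2 : F) = 0) (h : Fam0 P ⊥) (hr : R2 P) (ht : TrTop P)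
    (h4 : 4 ≤ Fintype.card ι) {x ξ ξ' : ι → F} (h1 : Fl P ⊥ x ξ) (h1' : Fl P ⊥ x ξ')
    (hn : ∀ c : F, ξ' ≠ c • ξ) : specialLinear ι F ≤ P := by
  let B : (ι → F) → (ι → F) → Prop := fun v w => ∀ φ, Fl P ⊥ v φ → φ ⬝ᵥ w = 0 ∨ φ ⬝ᵥ w = 1
  have bot : ∀ {c : F}, c = 0 ∨ c = 1 → c ∈ (⊥ : Subfield F) := fun e => e.elim (· ▸ zero_mem _) (· ▸ one_mem _)
  have two : ∀ {v φ w χ}, Fl P ⊥ v φ → Fl P ⊥ w χ → φ ⬝ᵥ w * χ ⬝ᵥ v = 0 ∨ φ ⬝ᵥ w * χ ⬝ᵥ v = 1 := fun f1 f2 => by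
    obtain ⟨ψ, f, e⟩ := h.exists_ker h2 hr h4 h1 h1' hn f1 f2
    have := f1.tv.comm_right (f2.tv.comm_right f.tv e) (by simp [f.dot])
    rw [smul_smul] at this
    exact hr f.1 f.2.1 f.tv this
  have sy : ∀ {v φ w χ}, Fl P ⊥ v φ → Fl P ⊥ w χ → B v w → B w v := fun {v φ w χ} f1 f2 b ψ f => by
    by_cases e : ψ ⬝ᵥ v = 0
    · exact .inl e
    obtain ⟨φ', f', k⟩ := (h.ax_symm f1 f).2 e
    simpa only [(b _ f').resolve_left k, one_mul] using two f' f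
  have kil : ∀ {y}, (∀ φ, Fl P ⊥ x φ → φ ⬝ᵥ y = 0) → ∃ c : F, c • x = y := fun k => exists_smul_of_forall_dot fun ρ r =>
    by_contra fun n => let ⟨ψ, f, e⟩ := span_ex (h.span h1 h1' hn h1 r) n; e (k ψ f)
  have one : ∀ {w}, (∀ c : F, c • x ≠ w) → B x w → ∃ φ, Fl P ⊥ x φ ∧ φ ⬝ᵥ w = 1 := fun {w} n b => by
    by_contra! k
    obtain ⟨c, e⟩ := kil (y := w) fun φ f => (b φ f).resolve_right (k φ f)
    exact n c e
  have nrm : ∀ {w χ}, Fl P ⊥ w χ → (∀ c : F, c • x ≠ w) → ∃ s : F, s ≠ 0 ∧ B x (s • w) := fun {w χ} f n => by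
    obtain ⟨φ, f1, e⟩ : ∃ φ, Fl P ⊥ x φ ∧ φ ⬝ᵥ w ≠ 0 := by
      by_contra! k
      exact let ⟨c, e⟩ := kil k; n c e
    obtain ⟨χ', f2, e'⟩ := (h.ax_symm f f1).2 e
    exact ⟨_, e', fun ψ fψ => by rw [dotProduct_smul, smul_eq_mul, mul_comm]; exact two fψ f2⟩
  have alt : ∀ {w χ w' χ'}, Fl P ⊥ w χ → Fl P ⊥ w' χ' → (∀ c : F, c • x ≠ w) → (∀ c : F, c • x ≠ w') → B x w → B x w' →
      B w' w ∨ ∃ c : F, c • x = w' - w := fun {w χ w' χ'} f f' n n' b b' => by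
    obtain ⟨φ, f0, e0⟩ := one n b
    by_cases k : ∃ ψ, Fl P ⊥ x ψ ∧ ψ ⬝ᵥ w = 0 ∧ ψ ⬝ᵥ w' ≠ 0
    · obtain ⟨ψ, fψ, a1, a2⟩ := k
      obtain ⟨η, fη, a3⟩ := (h.ax_symm f f0).2 (e0 ▸ one_ne_zero)
      have := fη.tv.comm_right fψ.tv a1
      rw [(sy h1 f b η fη).resolve_left a3, one_smul] at this
      exact .inl fun ζ fζ => by simpa only [(b' ψ fψ).resolve_left a2, one_mul] using two (fl_bot f.1 fψ.2.1 this) fζ
    push Not at k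
    have k1 : ∀ ψ, Fl P ⊥ x ψ → ψ ⬝ᵥ w = 1 → ψ ⬝ᵥ w' = φ ⬝ᵥ w' := fun ψ fψ e => by
      by_cases r : ψ - φ = 0
      · rw [sub_eq_zero.1 r]
      · have := k _ (fl_bot h1.1 r (fψ.tv.sub_right f0.tv)) (by rw [sub_dotProduct, e, e0, sub_self])
        rwa [sub_dotProduct, sub_eq_zero] at this
    have k2 : φ ⬝ᵥ w' = 1 := (b' φ f0).resolve_left fun r =>
      let ⟨c, e⟩ := kil (y := w') fun ψ fψ => (b ψ fψ).elim (k ψ fψ) fun a => (k1 ψ fψ a).trans r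
      n' c e
    refine .inr (kil fun ψ fψ => ?_)
    rw [dotProduct_sub, sub_eq_zero]
    exact (b ψ fψ).elim (fun a => (k ψ fψ a).trans a.symm) fun a => ((k1 ψ fψ a).trans k2).trans a.symm
  have e : (⊥ : Subfield F) = ⊤ := ht _ (trace_mem
    (O := {a | Fl P ⊥ a.1 a.2 ∧ (a.1 = x ∨ (∀ c : F, c • x ≠ a.1) ∧ B x a.1)}) (fun a ha => ha.1.dot) ?_ fun N hN => h.gen N ?_)
  · exact (e ▸ h : Fam0 P ⊤).sl_le (e ▸ h1) (e ▸ h1') hn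
  · rintro ⟨w', χ'⟩ ⟨f', rfl | ⟨n', b'⟩⟩ ⟨w, χ⟩ ⟨f, rfl | ⟨n, b⟩⟩
    · exact bot (.inl f'.dot)
    · exact bot (b _ f')
    · exact bot (sy f f' b' _ f')
    rcases alt f f' n n' b b' with r | ⟨μ, r⟩
    · exact bot (r _ f')
    obtain ⟨ρ, r0, r1, r2, -⟩ := mul2_dim h4 x w 0
    obtain ⟨z, ζ, fz, -, a⟩ := h.mid h1.1 r0
    obtain ⟨s, s0, bz⟩ := nrm fz fun c e => a (by rw [← e, dotProduct_smul, r1, smul_zero])
    have a' : ρ ⬝ᵥ s • z ≠ 0 := by simpa [s0] using a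
    have fz' := fz.rescale s0
    generalize s • z = z at *
    have nz : ∀ c : F, c • x ≠ z := fun c e => a' (by rw [← e, dotProduct_smul, r1, smul_zero])
    have r3 : ρ ⬝ᵥ w' = 0 := by simpa [r1, r2] using (congrArg (ρ ⬝ᵥ ·) r).symm
    have c1 := (alt f fz' n nz b bz).resolve_right fun ⟨c, e⟩ => a' (by simpa [r1, r2] using (congrArg (ρ ⬝ᵥ ·) e).symm)
    have c2 := (alt f' fz' n' nz b' bz).resolve_right fun ⟨c, e⟩ => a' (by simpa [r1, r3] using (congrArg (ρ ⬝ᵥ ·) e).symm)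
    obtain ⟨φ, f0, e0⟩ := one nz bz
    obtain ⟨η, fη, a3⟩ := (h.ax_symm fz' f0).2 (e0 ▸ one_ne_zero)
    have m : μ ∈ (⊥ : Subfield F) := by
      have := congrArg (η ⬝ᵥ ·) r
      simp only [dotProduct_smul, (sy h1 fz' bz η fη).resolve_left a3, smul_eq_mul, mul_one, dotProduct_sub] at this
      exact this ▸ sub_mem (bot (c2 η fη)) (bot (c1 η fη))
    have := congrArg (χ' ⬝ᵥ ·) r
    simp only [dotProduct_smul, smul_eq_mul, dotProduct_sub, f'.dot, zero_sub] at this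
    exact neg_mem_iff.1 (this ▸ mul_mem m (bot (sy h1 f' b' _ f')))
  · intro w χ f
    have fin : ∀ s : F, s ≠ 0 → (s • w = x ∨ (∀ c : F, c • x ≠ s • w) ∧ B x (s • w)) → Tv N w χ := fun s s0 k => by
      simpa [smul_smul, s0] using Tv.of_smul_left s0 (hN (_, _) ⟨f.rescale s0, k⟩ 1 (one_mem _))
    by_cases k : ∃ c : F, c • x = w
    · obtain ⟨c, e⟩ := k
      have c0 : c ≠ 0 := left_ne_zero_of_smul (e ▸ f.1)
      exact fin c⁻¹ (inv_ne_zero c0) (.inl (by rw [← e, inv_smul_smul₀ c0]))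
    push Not at k
    obtain ⟨s, s0, b⟩ := nrm f k
    exact fin s s0 (.inr ⟨fun c e => k (s⁻¹ * c) (by rw [mul_smul, e, inv_smul_smul₀ s0]), b⟩)

/-- the transpose -/
def trGL (g : GL ι F) : GL ι F :=
  ⟨g.1ᵀ, (g⁻¹).1ᵀ, by rw [← transpose_mul, Units.inv_mul, transpose_one], by rw [← transpose_mul, Units.mul_inv, transpose_one]⟩

/-- the transposed group -/
def trS (P : Subgroup (GL ι F)) : Subgroup (GL ι F) where
  carrier := {g | trGL g ∈ P}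
  one_mem' := show trGL 1 ∈ P from (Units.ext transpose_one : trGL (1 : GL ι F) = 1).symm ▸ P.one_mem
  mul_mem' {a b} ha hb := show trGL (a * b) ∈ P from
    (Units.ext (transpose_mul _ _) : trGL (a * b) = trGL b * trGL a).symm ▸ P.mul_mem hb ha
  inv_mem' ha := P.inv_mem ha

theorem tv_trS {v φ : ι → F} : Tv (trS P) φ v ↔ Tv P v φ := by
  have k : ∀ h h', trGL (tvGL φ v h) = tvGL v φ h' := fun h h' => Units.ext (by
    change (1 + vecMulVec φ v)ᵀ = 1 + vecMulVec v φ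
    rw [transpose_add, transpose_one, transpose_vecMulVec])
  exact ⟨fun ⟨h, e⟩ => ⟨(dotProduct_comm _ _).trans h, k h _ ▸ e⟩,
    fun ⟨h, e⟩ => ⟨(dotProduct_comm _ _).trans h, show trGL _ ∈ P from (k _ h).symm ▸ e⟩⟩

/-- If `Sg.cen` fails, two axes through a centre are not proportional (`R2`): `sl_le_two`.  If
`Sg.ax` fails, apply this to the transposed group `Pᵀ = {gᵀ | g ∈ P}` (`Tv Pᵀ φ v ↔ Tv P v φ`; `Fam0`,
`R2`, `TrTop` pass to `Pᵀ`). -/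
theorem Fam0.sg_or [Finite F] (h2 : (2 : F) = 0) (h : Fam0 P ⊥) (hr : R2 P) (ht : TrTop P)
    (h4 : 4 ≤ Fintype.card ι) : Sg P ∨ specialLinear ι F ≤ P := by
  have key : ∀ {P : Subgroup (GL ι F)}, Fam0 P ⊥ → R2 P → TrTop P → ¬ specialLinear ι F ≤ P →
      ∀ {v φ ψ : ι → F}, v ≠ 0 → φ ≠ 0 → ψ ≠ 0 → Tv P v φ → Tv P v ψ → ψ = φ := fun h hr ht n v φ ψ hv hφ hψ t t' =>
    by_contra fun k => n (h.sl_le_two h2 hr ht h4 (fl_bot hv hφ t) (fl_bot hv hψ t') fun c e => by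
      rcases hr hv hφ t (e ▸ t') with r | r
      exacts [hψ (by rw [e, r, zero_smul]), k (by rw [e, r, one_smul])])
  refine or_iff_not_imp_right.2 fun n => ⟨key h hr ht n, fun hv hw hφ t t' => ?_⟩
  refine key (P := trS P) ⟨fun v φ hv hφ => ?_, ?_, fun N hN g hg => ?_⟩ (fun hv hφ t t' => ?_) (fun M hM => ht M fun g hg => ?_)
    (fun k => n fun g hg => ?_) hφ hv hw (tv_trS.2 t) (tv_trS.2 t')
  · obtain ⟨g, hg, e⟩ := h.ir φ v hφ hv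
    exact ⟨trGL g, hg, by rwa [show (trGL g).1 = g.1ᵀ from rfl, mulVec_transpose, dotProduct_comm, ← dotProduct_mulVec]⟩
  · exact ⟨_, _, fl_bot hφ hv (tv_trS.2 t)⟩
  · exact h.gen (trS N) (fun v φ f => tv_trS.2 (hN _ _ (fl_bot f.2.1 f.1 (tv_trS.2 f.tv)))) hg
  · exact hr hφ hv (tv_trS.1 t) ((tv_trS.1 t').smul_swap (tv_trS.1 t).dot)
  · exact trace_transpose g.1 ▸ hM (trGL g) hg
  · exact k (show trGL g ∈ _ from mem_specialLinear.2 ((det_transpose g.1).trans (mem_specialLinear.1 hg)))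

end Cfsg.Lib.TVn
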