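import Cfsg.Agent.Lib.TVn.Cyc
import Cfsg.Agent.Lib.Linear.FormTv
import Cfsg.Agent.Lib.Unitary.Gen
import Cfsg.Agent.Lib.Dim3.KUni

/-!
# Transvection groups without linear pairs
-/

set_option autoImplicit false

namespace Cfsg.Lib.TVn

open scoped MatrixGroups Matrix commutatorElement
open Cfsg.Geo Cfsg.Lib.Asch Cfsg.Lib.Linear Module Matrix

variable {ι : Type} [Fintype ι] [DecidableEq ι] {F : Type*} [Field F] {P : Subgroup (GL ι F)}
  {k : Subfield F}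

variable {σ : F →+* F} {q : ℕ} {f : (ι → F) → (ι → F) → F}

/-- **No linear pairs.**  `σ = (· ^ |k|)` has fixed field `k` (as in `Dim3.Fam.classify`).  Let `O` be
the set of flags `(v, φ)` with `ξ v = 1`, `φ x = -1` for a base flag `(x, ξ)`.  For `a = (v, φ)`,
`b = (w, χ)` in `O` put `s = φ w`, `t = χ v`: `s t ∈ k` (`two`), `s - t ∈ k` (`three`).  If `s ∉ k` then
`σ s = -t` (`Dim3.conj_eq_of_notMem`).  If `s ∈ k`, conjugate `a` by `1 + t x ξ` to `(v + t x, φ + t ξ)`;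
`χ` kills the new centre, so by `NL` `s + t = 0`.  `trace_mem` for the fixed field of `σ²` gives
`σ² = 1`, `trace_inv` the traces.  If `σ = id`, `Re P`.  Otherwise `exists_sform_of_trace`,
`SForm.exists_herm` (as `Dim3.unitary_of_trace`), `Unitary.exists_isBar_of_invol`; and some `s ∉ k`,
since otherwise `trace_mem` gives `k = ⊤`. -/
theorem Fam.nl [Finite F] (hF : Fam P k) (hn : NL P k) (ht : TrTop P) (he : env P = ⊤) :
    Re P ∨ ∃ (σ : F →+* F) (f : (ι → F) → (ι → F) → F), Unitary.IsBar (Nat.card k) σ ∧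
      (∀ a, σ a = a ↔ a ∈ k) ∧ SForm σ 1 f ∧ P ≤ iso f ∧ ∃ x ξ y η z ζ, Fl P k x ξ ∧ Fl P k y η ∧
        Fl P k z ζ ∧ ξ ⬝ᵥ y = 1 ∧ ξ ⬝ᵥ z = 1 ∧ η ⬝ᵥ x = -1 ∧ ζ ⬝ᵥ x = -1 ∧ η ⬝ᵥ z ∉ k := by
  let _ := Fintype.ofFinite k
  let σ : F →+* F := (FiniteField.frobeniusAlgHom k F).toRingHom
  have hσ : ∀ a, σ a = a ↔ a ∈ k := fun a => by
    rw [PSL2.mem_subfield_iff_pow_card, Nat.card_eq_fintype_card]; rfl
  obtain ⟨x, ξ, fx⟩ := hF.ex
  let O : Set ((ι → F) × (ι → F)) := {a | Fl P k a.1 a.2 ∧ ξ ⬝ᵥ a.1 = 1 ∧ a.2 ⬝ᵥ x = -1}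
  have h0 : ∀ a ∈ O, a.2 ⬝ᵥ a.1 = 0 := fun a ha => ha.1.dot
  have hO : ∀ a ∈ O, ∀ b ∈ O, σ (a.2 ⬝ᵥ b.1) = -(b.2 ⬝ᵥ a.1) := fun a ⟨fa, a1, a2⟩ b ⟨fb, b1, b2⟩ => by
    have e3 : b.2 ⬝ᵥ a.1 - a.2 ⬝ᵥ b.1 ∈ k := by
      convert hF.three fx fb fa using 1
      rw [a1, a2, b1, b2]
      ring
    by_cases hs : a.2 ⬝ᵥ b.1 ∈ k
    swap
    · exact Dim3.conj_eq_of_notMem hσ e3 (hF.two fa fb) hs
    have := hn fb (fa.conj_tv (fx.2.2 _ (k.add_mem e3 hs))) (by simp [a1, b2])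
    rw [(hσ _).2 hs]
    simpa [a2, b1, add_eq_zero_iff_eq_neg] using this
  have hg : ∀ N : Subgroup (GL ι F), (∀ a ∈ O, ∀ c ∈ k, Tv N a.1 (c • a.2)) → P ≤ N := fun N hN =>
    hF.gen_opp (.inr hn) fx N fun v φ f e1 e2 => hN (v, φ) ⟨f, e1, e2⟩
  have h2 : ∀ a, σ (σ a) = a := fun a => by
    have hM : Unitary.fixedField (σ.comp σ) = ⊤ := ht _ (trace_mem h0 (fun a ha b hb => by
      rw [Unitary.mem_fixedField, RingHom.comp_apply, hO a ha b hb, map_neg, hO b hb a ha, neg_neg])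
      fun N hN => hg N fun a ha c hc => hN a ha c (by
        rw [Unitary.mem_fixedField, RingHom.comp_apply, (hσ c).2 hc, (hσ c).2 hc]))
    exact (hM ▸ Subfield.mem_top a : a ∈ Unitary.fixedField (σ.comp σ))
  have tr := trace_inv h0 hO fun N hN => hg N fun a ha c hc => hN a ha c ((hσ c).2 hc)
  by_cases h1 : ∀ a, σ a = a
  · exact .inl fun g m => (tr g m).trans (h1 _)
  push Not at h1
  have : Nonempty ι := by
    by_contra e
    exact fx.1 (funext fun i => (e ⟨i⟩).elim)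
  obtain ⟨ε, f, hf, -, ha⟩ := exists_sform_of_trace h2 (H := P) he Subgroup.le_normalizer tr
  obtain ⟨c, -, hc⟩ := hf.exists_herm h1
  obtain ⟨q, hq⟩ := Unitary.exists_isBar_of_invol (σ := σ) (fun e => h1.elim fun a n => n (by rw [e]; rfl)) h2
  have hqk : q = Nat.card k := by
    rw [← hq.card_fixedField, show Unitary.fixedField σ = k from Subfield.ext hσ]
  refine .inr ⟨σ, _, hqk ▸ hq, hσ, hc, fun g m u v => congrArg (c * ·) (hf.adj_eq_inv_iff.1 (ha g m) u v), ?_⟩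
  by_contra e
  obtain ⟨a, n⟩ := h1
  refine n ((hσ a).2 (ht k (trace_mem h0 (fun a ha b hb => by_contra fun n => ?_) hg) ▸ Subfield.mem_top a))
  exact e ⟨x, ξ, a.1, a.2, b.1, b.2, fx, ha.1, hb.1, ha.2.1, hb.2.1, ha.2.2, hb.2.2, n⟩

/-- `P` contains the unitary transvections with centre `u`. -/
def Cn (P : Subgroup (GL ι F)) (σ : F →+* F) (f : (ι → F) → (ι → F) → F) (u : ι → F) : Prop :=
  ∀ c, σ c = -c → Tv P u (c • dv σ f u)

/-- Expand `f (x + φ(x) v) (y + φ(y) v) = f x y`.  For `φ y = 0 ≠ φ x` we get `f v y = 0`; so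
`f · v = c' φ`, `c' ≠ 0` by non-degeneracy, `f v v = 0`, and `σ c' = -c'`. -/
theorem tv_form (hf : SForm σ 1 f) (hP : P ≤ iso f) {v φ : ι → F} (hv : v ≠ 0) (hφ : φ ≠ 0)
    (h : Tv P v φ) : f v v = 0 ∧ ∃ c, c ≠ 0 ∧ σ c = -c ∧ φ = c • dv σ f v := by
  have key : ∀ x y, σ (φ ⬝ᵥ y) * f x v + φ ⬝ᵥ x * f v y + φ ⬝ᵥ x * σ (φ ⬝ᵥ y) * f v v = 0 := fun x y => by
    have := hP h.2 x y
    simp only [tvGL_mulVec, hf.add_left, hf.add_right, hf.smul_left, hf.smul_right] at this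
    linear_combination this
  obtain ⟨y, hy⟩ := exists_dot_eq_one hφ
  rw [dotProduct_comm] at hy
  have vv : f v v = 0 := by simpa [hy, h.dot] using key v y
  have k1 : ∀ x, f x v = -f v y * φ ⬝ᵥ x := fun x => by
    have := key x y
    rw [hy, vv, map_one] at this
    linear_combination this
  have n : f v y ≠ 0 := fun e => hv (hf.nondeg v fun x => by rw [k1, e, neg_zero, zero_mul])
  have s : σ (f v y) = -f v y := by
    have := hf.herm y v
    rw [k1, hy] at this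
    linear_combination -this
  refine ⟨vv, -(f v y)⁻¹, neg_ne_zero.2 (inv_ne_zero n), by rw [map_neg, map_inv₀, s, inv_neg],
    dotProduct_eq _ _ fun x => ?_⟩
  rw [smul_dotProduct, dv_dot hf, k1, smul_eq_mul]
  field_simp

/-- As `Dim3.Pol.eq_su` (`Unitary.TG_le`, `TG_eq_SUG`). -/
theorem eq_su (hq : Unitary.IsBar q σ) (hf : SForm σ 1 f) (hP : P ≤ iso f)
    (hs : P ≤ specialLinear ι F) (h4 : 4 ≤ Fintype.card ι) (h : ∀ u, f u u = 0 → Cn P σ f u) :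
    P = iso f ⊓ specialLinear ι F := by
  refine le_antisymm (le_inf hP hs) fun g hg => ?_
  have := hq.finite
  have h1 : Unitary.TG hf.toSesq ≤ P.map (Unitary.glEquiv ι F).toMonoidHom :=
    Unitary.TG_le fun u c hu hc => by
      refine ⟨_, (h u hu c (eq_neg_of_add_eq_zero_right hc)).2, LinearEquiv.ext fun v => ?_⟩
      change _ *ᵥ v = v + (c * f v u) • u
      rw [tvGL_mulVec, smul_dotProduct, smul_eq_mul, dv_dot hf]
  rw [(hf.isHerm hq).TG_eq_SUG hq (by rw [finrank_fintype_fun_eq_card]; omega)] at h1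
  obtain ⟨g', hg', e⟩ := h1 (x := Unitary.glEquiv ι F g) (Unitary.mem_SUG'.2
    ⟨fun u v => hg.1 v u, by
      rw [Unitary.glEquiv_toLinearMap, LinearMap.det_toLin']; exact mem_specialLinear.1 hg.2⟩)
  rwa [← (Unitary.glEquiv ι F).injective e]

end Cfsg.Lib.TVn
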