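import Cfsg.Agent.Lib.TVn.MonF
import Cfsg.Agent.Lib.TVn.Uni

/-!
# Transvection subgroups of `SU₄(2)` and `SU₅(2)`
-/

set_option autoImplicit false

namespace Cfsg.Lib.TVn

open scoped MatrixGroups Matrix commutatorElement
open Cfsg.Geo Cfsg.Lib.Asch Cfsg.Lib.Linear Module Matrix

variable {ι : Type} [Fintype ι] [DecidableEq ι] {F : Type*} [Field F] {P : Subgroup (GL ι F)}
  {k : Subfield F}

variable {σ : F →+* F} {f : (ι → F) → (ι → F) → F}

namespace B2

variable (h : Unitary.IsBar 2 σ)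
include h

theorem two : (2 : F) = 0 := by exact_mod_cast h.cast_q

theorem norm {a : F} (ha : a ≠ 0) : a * σ a = 1 := by
  have := h.invol a
  rw [h.eq, h.eq] at this
  rw [h.eq]
  exact mul_left_cancel₀ ha (by linear_combination this)

theorem fix {a : F} (ha : a ≠ 0) (e : σ a = a) : a = 1 :=
  mul_left_cancel₀ ha (by rw [h.eq] at e; linear_combination e)

theorem om : ∃ w : F, w + σ w = 1 ∧ w ≠ 0 ∧ σ w ≠ 0 := by
  obtain ⟨w, hw⟩ := h.exists_ne
  have : w + σ w = 1 := fix h (fun e => hw (by linear_combination e - w * two h))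
    (by rw [map_add, h.invol, add_comm])
  exact ⟨w, this, fun e => hw (by simp [e]), fun e => hw (by simp [(map_eq_zero σ).1 e])⟩

end B2

/-- The setting: `|F| = 4`, `C u` says that `1 + u f(·, u) ∈ P`. -/
structure U2 (σ : F →+* F) (f : (ι → F) → (ι → F) → F) (C : (ι → F) → Prop) : Prop where
  bar : Unitary.IsBar 2 σ
  form : SForm σ 1 f
  iso : ∀ u, C u → f u u = 0
  smul : ∀ u (c : F), C u → C (c • u)
  conj : ∀ u w, C u → C w → C (u + f u w • w)
  inv : ∀ W : Submodule F (ι → F), W ≠ ⊥ → (∀ u, C u → ∀ w ∈ W, f w u ≠ 0 → u ∈ W) → W = ⊤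

/-- A good orthonormal frame. -/
structure Gd (f : (ι → F) → (ι → F) → F) (C : (ι → F) → Prop) {r : ℕ} (e : Fin r → ι → F) :
    Prop where
  on : ∀ i j, f (e i) (e j) = if i = j then 1 else 0
  cn : ∀ i j, i ≠ j → ∀ c : F, c ≠ 0 → C (e i + c • e j)

open Classical in
/-- The number of non-zero coordinates. -/
noncomputable def wt {r : ℕ} (a : Fin r → F) : ℕ := (Finset.univ.filter fun i => a i ≠ 0).card

theorem wt_le {r : ℕ} (a : Fin r → F) : wt a ≤ r := by
  classical exact (Finset.card_filter_le _ _).trans (by simp)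

theorem wt_eq {r : ℕ} {a : Fin r → F} : wt a = r ↔ ∀ i, a i ≠ 0 := by
  classical
  simpa [wt] using Finset.card_filter_eq_iff (s := Finset.univ) (p := fun i => a i ≠ 0)

theorem wt_zero {r : ℕ} {a : Fin r → F} : wt a = 0 ↔ a = 0 := by simp [wt, funext_iff]

theorem wt_one {r : ℕ} {a : Fin r → F} (h : wt a = 1) : ∃ i, a i ≠ 0 ∧ ∀ j, j ≠ i → a j = 0 := by
  obtain ⟨i, hi⟩ := Finset.card_eq_one.1 h
  have k : ∀ j, a j ≠ 0 ↔ j = i := fun j => by simpa using Finset.ext_iff.1 hi j
  exact ⟨i, (k i).2 rfl, fun j hj => not_not.1 (mt (k j).1 hj)⟩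

theorem wt_two {r : ℕ} {a : Fin r → F} (h : wt a = 2) :
    ∃ i j, i ≠ j ∧ a i ≠ 0 ∧ a j ≠ 0 ∧ ∀ m, m ≠ i → m ≠ j → a m = 0 := by
  obtain ⟨i, j, ij, hi⟩ := Finset.card_eq_two.1 h
  have k : ∀ m, a m ≠ 0 ↔ m = i ∨ m = j := fun j => by simpa using Finset.ext_iff.1 hi j
  exact ⟨i, j, ij, (k i).2 (.inl rfl), (k j).2 (.inr rfl), fun m a b =>
    not_not.1 (mt (k m).1 (not_or.2 ⟨a, b⟩))⟩

/-- The vector with coordinates `a` and component `z`. -/
def vec {r : ℕ} (e : Fin r → ι → F) (z : ι → F) (a : Fin r → F) : ι → F := ∑ i, a i • e i + z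

namespace U2

variable {C : (ι → F) → Prop} (h : U2 σ f C) {r : ℕ} {e : Fin r → ι → F} (g : Gd f C e)
  {z z' : ι → F} {a a' : Fin r → F}
include h

theorem herm (u v : ι → F) : σ (f u v) = f v u := by rw [h.form.herm v u, one_mul]

include g

theorem co (hz : ∀ i, f z (e i) = 0) (a : Fin r → F) (i : Fin r) : f (vec e z a) (e i) = a i := by
  simp [vec, h.form.add_left, h.form.sum_left, h.form.smul_left, g.on, hz]

theorem fvec (hz : ∀ i, f z (e i) = 0) (hz' : ∀ i, f z' (e i) = 0) (a a' : Fin r → F) :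
    f (vec e z a) (vec e z' a') = ∑ i, a i * σ (a' i) + f z z' := by
  rw [show vec e z' a' = _ + z' from rfl, h.form.add_right, h.form.sum_right]
  simp only [h.form.smul_right, h.co g hz, mul_comm]
  simp [vec, h.form.add_left, h.form.sum_left, h.form.smul_left, h.form.map_eq_zero.1 (hz' _)]

theorem dec (u : ι → F) : ∃ z a, (∀ i, f z (e i) = 0) ∧ u = vec e z a :=
  ⟨u - ∑ i, f u (e i) • e i, fun i => f u (e i), fun i => by
    simp [h.form.sub_left, h.form.sum_left, h.form.smul_left, g.on], by simp [vec]⟩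

theorem par (hz : ∀ i, f z (e i) = 0) (a : Fin r → F) :
    f (vec e z a) (vec e z a) = wt a + f z z := by
  classical
  rw [h.fvec g hz hz, wt, Finset.card_filter]
  push_cast
  congr 1
  exact Finset.sum_congr rfl fun i _ => by
    by_cases c : a i = 0
    · simp [c]
    · simp [c, B2.norm h.bar c]

theorem even (hz : ∀ i, f z (e i) = 0) (h0 : f (vec e z a) (vec e z a) = 0) :
    Even (wt a) ↔ f z z = 0 := by
  rw [h.par g hz] at h0
  rcases Nat.even_or_odd' (wt a) with ⟨n, c | c⟩ <;> rw [c] at h0 ⊢ <;> push_cast at h0 <;>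
    rw [B2.two h.bar, zero_mul, zero_add] at h0
  · simp [h0]
  · exact iff_of_false (by simp) fun d => by simp [d] at h0

theorem sw (hz : ∀ i, f z (e i) = 0) (hu : C (vec e z a)) {i j : Fin r} (ij : i ≠ j) {c : F}
    (hc : c ≠ 0) : C (vec e z (Function.update (Function.update a i (σ c * a j)) j (c * a i))) := by
  convert h.conj _ _ hu (g.cn i j ij c hc) using 1
  rw [h.form.add_right, h.form.smul_right, h.co g hz, h.co g hz]
  have k : ∀ (a : Fin r → F) i b, vec e z (Function.update a i b) = vec e z a + (b - a i) • e i :=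
    fun a i b => by
      simp only [vec, Function.update_apply, ite_smul]
      rw [← Finset.add_sum_erase _ _ (Finset.mem_univ i), ← Finset.add_sum_erase _ _ (Finset.mem_univ i),
        Finset.sum_congr rfl fun x hx => if_neg (Finset.ne_of_mem_erase hx), if_pos rfl, sub_smul]
      abel
  rw [k, k, Function.update_of_ne ij.symm, add_assoc, smul_add, smul_smul]
  congr 3
  · linear_combination (-a i) * B2.two h.bar
  · linear_combination (-a j) * B2.two h.bar - a j * B2.norm h.bar hc

theorem perm (hz : ∀ i, f z (e i) = 0) (hu : C (vec e z a)) (π : Equiv.Perm (Fin r)) :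
    C (vec e z (a ∘ π)) := by
  induction π using Equiv.Perm.swap_induction_on' with
  | one => exact hu
  | mul_swap π i j ij ih =>
    convert h.sw g hz ih ij one_ne_zero using 2
    rw [Equiv.Perm.coe_mul, ← Function.comp_assoc, Equiv.comp_swap_eq_update, map_one, one_mul,
      one_mul, Function.update_comm ij]

theorem scal (hz : ∀ i, f z (e i) = 0) (hu : C (vec e z a)) {b : Fin r → F} (hb : ∏ i, b i = 1) :
    C (vec e z fun i => b i * a i) := by
  rcases r.eq_zero_or_pos with rfl | hr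
  · convert hu using 2
  let m : Fin r := ⟨0, hr⟩
  have hb0 : ∀ i, b i ≠ 0 := fun i c => by simp [Finset.prod_eq_zero (Finset.mem_univ i) c] at hb
  have key : ∀ s : Finset (Fin r), m ∉ s → C (vec e z fun i =>
      if i ∈ s then b i * a i else if i = m then (∏ i ∈ s, b i)⁻¹ * a m else a i) := fun s hs => by
    induction s using Finset.induction_on with
    | empty => convert hu using 3 with i; by_cases c : i = m <;> simp [c]
    | insert j s hj ih =>
      rw [Finset.mem_insert, not_or] at hs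
      convert h.sw g hz (h.sw g hz (ih hs.2) hs.1 (inv_ne_zero (hb0 j))) hs.1 one_ne_zero using 3 with i
      have : σ (b j)⁻¹ = b j := by
        rw [map_inv₀, ← eq_inv_of_mul_eq_one_left (B2.norm h.bar (hb0 j))]
      by_cases c : i = j
      · simp [c, hj, this, Ne.symm hs.1, hs.1]
      by_cases d : i = m
      · simp [d, hs, Finset.prod_insert hj, mul_assoc, mul_left_comm]
      · simp [c, d]
  convert key (Finset.univ.erase m) (by simp) using 3 with i
  by_cases c : i = m
  · rw [← Finset.mul_prod_erase _ _ (Finset.mem_univ m)] at hb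
    simp [c, eq_inv_of_mul_eq_one_left hb]
  · simp [c]

/-- The monomial group is transitive on the vectors of a given weight `< r`. -/
theorem mon (hz : ∀ i, f z (e i) = 0) (hu : C (vec e z a)) (hw : wt a' = wt a) (hr : wt a ≠ r) :
    C (vec e z a') := by
  classical
  obtain ⟨π, hπ⟩ := Equiv.Perm.exists_map_finset_eq _ _ hw
  have k : ∀ i, a (π i) = 0 ↔ a' i = 0 := fun i => by simpa using (Finset.ext_iff.1 hπ (π i)).symm.not
  obtain ⟨m, hm⟩ : ∃ m, a' m = 0 := by simpa using mt wt_eq.2 (hw ▸ hr)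
  let b : Fin r → F := fun i => if a' i = 0 then 1 else a' i / a (π i)
  have hb : ∏ i ∈ Finset.univ.erase m, b i ≠ 0 := Finset.prod_ne_zero_iff.2 fun i _ => by
    by_cases c : a' i = 0 <;> simp [b, c, k]
  convert h.scal g hz (h.perm g hz hu π) (b := Function.update b m (∏ i ∈ Finset.univ.erase m, b i)⁻¹)
    (by rw [Finset.prod_update_of_mem (Finset.mem_univ m), Finset.sdiff_singleton_eq_erase,
      inv_mul_cancel₀ hb]) using 3 with i
  by_cases c : i = m
  · simp [c, hm, (k m).2 hm]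
  by_cases d : a' i = 0
  · simp [d, (k i).2 d]
  · simp [c, b, d, mt (k i).1 d]

theorem zero (h2 : 2 ≤ r) : C 0 := by
  simpa using h.smul _ 0 (g.cn ⟨0, by omega⟩ ⟨1, by omega⟩ (by simp) 1 one_ne_zero)

theorem low (h2 : 2 ≤ r) (hw : wt a = 0 ∨ wt a = 2) : C (vec e 0 a) := by
  rcases hw with c | c
  · simpa [vec, wt_zero.1 c] using h.zero g h2
  obtain ⟨i, j, ij, hi, hj, k⟩ := wt_two c
  convert h.smul _ (a i) (g.cn i j ij _ (div_ne_zero hj hi)) using 1
  rw [vec, add_zero, smul_add, smul_smul, mul_div_cancel₀ _ hi]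
  exact Finset.sum_eq_add_of_mem i j (by simp) (by simp) ij fun m _ hm => by simp [k m hm.1 hm.2]

theorem ext (h2 : 2 ≤ r) (hz : ∀ i, f z (e i) = 0) (hu : C (vec e z a)) (hw : wt a = 1) :
    ∃ e' : Fin (r + 1) → ι → F, Gd f C e' := by
  have zz : f z z = 1 := B2.fix h.bar (mt (h.even g hz (h.iso _ hu)).2 (by simp [hw])) (h.herm z z)
  have k : ∀ i (c : F), c ≠ 0 → C (c • e i + z) := fun i c hc => by
    have := h.mon g hz hu (a' := Pi.single i c) (by
      rw [hw, wt, Finset.card_eq_one]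
      exact ⟨i, by ext j; by_cases d : j = i <;> simp [d, hc]⟩) (by omega)
    simpa [vec, Pi.single_apply, ite_smul] using this
  refine ⟨Fin.cons z e, fun i j => ?_, fun i j => ?_⟩
  · refine Fin.cases ?_ (fun i => ?_) i <;> refine Fin.cases ?_ (fun j => ?_) j <;>
      simp [zz, hz, g.on, h.form.map_eq_zero.1 (hz _), (Fin.succ_ne_zero _).symm]
  · refine Fin.cases ?_ (fun i => ?_) i <;> refine Fin.cases ?_ (fun j => ?_) j <;> intro ij c hc
    · exact absurd rfl ij
    · simpa [add_comm] using k j c hc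
    · simpa [smul_smul, hc] using h.smul _ c (k i c⁻¹ (inv_ne_zero hc))
    · exact g.cn i j (by simpa using ij) c hc

theorem li : LinearIndependent F e := Fintype.linearIndependent_iff.2 fun a ha i => by
  simpa [vec, ha, h.form.zero_left] using (h.co g (fun _ => h.form.zero_left _) a i).symm

theorem rank : finrank F (Submodule.span F (Set.range e)) = r := by
  rw [finrank_span_eq_card (h.li g), Fintype.card_fin]

theorem notMem (hz : ∀ i, f z (e i) = 0) (h0 : z ≠ 0) : z ∉ Submodule.span F (Set.range e) :=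
  fun a => by
  obtain ⟨c, rfl⟩ := (Submodule.mem_span_range_iff_exists_fun F).1 a
  exact h0 (Finset.sum_eq_zero fun m _ => by
    rw [← h.co g (fun _ => h.form.zero_left _) c m, vec, add_zero, hz, zero_smul])

omit h g in
theorem vec_mem {U : Submodule F (ι → F)} (hU : Submodule.span F (Set.range e) ≤ U) :
    vec e z a ∈ U ↔ z ∈ U := U.add_mem_iff_right (sum_mem fun i _ =>
  U.smul_mem _ (hU (Submodule.subset_span ⟨i, rfl⟩)))

omit g in
theorem kill (hz : ∀ i, f z (e i) = 0) : Submodule.span F (Set.range e) ≤ dotKer (dv σ f z) :=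
  Submodule.span_le.2 (by
    rintro _ ⟨m, rfl⟩; exact (dv_dot h.form _ _).trans (h.form.map_eq_zero.1 (hz m)))

omit g in
theorem ker_lt (h0 : z ≠ 0) : finrank F (dotKer (dv σ f z)) < Fintype.card ι := by
  rw [← finrank_fintype_fun_eq_card F]
  exact Submodule.finrank_lt fun c => h0 (h.form.nondeg _ fun x =>
    (dv_dot h.form _ _).symm.trans (show x ∈ dotKer _ from c ▸ trivial))

theorem out (hr : 0 < r) {U : Submodule F (ι → F)} (hU : Submodule.span F (Set.range e) ≤ U)
    (h1 : finrank F U < Fintype.card ι) : ∃ z a, (∀ i, f z (e i) = 0) ∧ C (vec e z a) ∧ z ∉ U ∧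
      ∃ w ∈ U, f w (vec e z a) ≠ 0 := by
  by_contra hn
  push Not at hn
  rw [h.inv U (fun c => (h.li g).ne_zero ⟨0, hr⟩
    (by simpa [c] using hU (Submodule.subset_span ⟨_, rfl⟩))) fun u hu w hw c => ?_, finrank_top,
    finrank_fintype_fun_eq_card] at h1
  · exact h1.false
  obtain ⟨z, a, hz, rfl⟩ := h.dec g u
  exact (vec_mem hU).2 (by_contra fun d => c (hn z a hz hu d w hw))

omit g in
theorem three {e : Fin 3 → ι → F} (g : Gd f C e) (h4 : 4 ≤ Fintype.card ι)
    (h5 : Fintype.card ι ≤ 5) : ∃ e' : Fin 4 → ι → F, Gd f C e' := by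
  classical
  by_contra hn
  have h2 := B2.two h.bar
  obtain ⟨w, hw, w0, w1⟩ := B2.om h.bar
  have nw := B2.norm h.bar w0
  have k : ∀ {z a}, (∀ i, f z (e i) = 0) → C (vec e z a) → wt a = 0 ∨ wt a = 2 := fun {z a} hz hu => by
    have n1 : wt a ≠ 1 := fun c => hn (h.ext g (by omega) hz hu c)
    have n3 : wt a ≠ 3 := fun c => by
      have n := fun i => B2.norm h.bar (wt_eq.1 c i)
      let M : Fin 3 → Fin 3 → F := ![a, ![a 0, w * a 1, σ w * a 2], ![a 0, σ w * a 1, w * a 2]]
      have z0 : ∀ i, f 0 (e i) = 0 := fun _ => h.form.zero_left _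
      have on : ∀ i j, f (vec e 0 (M i)) (vec e 0 (M j)) = if i = j then 1 else 0 := fun i j => by
        rw [h.fvec g z0 z0, h.form.zero_left, add_zero, Fin.sum_univ_three]
        have := n 0; have := n 1; have := n 2
        fin_cases i <;> fin_cases j <;> simp [M, h.bar.invol] <;> grind
      have g' : Gd f C fun i => vec e 0 (M i) := ⟨on, fun i j ij c hc => by
        have e1 : vec e 0 (M i) + c • vec e 0 (M j) = vec e 0 (M i + c • M j) := by
          simp [vec, add_smul, Finset.sum_add_distrib, Finset.smul_sum, smul_smul]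
        have := (h.even g z0 (a := M i + c • M j) (by
          simp only [← e1, h.form.add_left, h.form.add_right, h.form.smul_left, h.form.smul_right, on]
          simp [ij, ij.symm, mul_comm (σ c), B2.norm h.bar hc, one_add_one_eq_two, h2])).2 (h.form.zero_left _)
        have l := wt_le (M i + c • M j)
        exact e1 ▸ h.low g (by omega) (by obtain ⟨n, hn⟩ := this; omega)⟩
      refine hn (h.ext g' (z := z) (a := ![1, 0, 0]) (by omega) (fun i => ?_) ?_ ?_)
      · simp [vec, h.form.sum_right, h.form.smul_right, hz]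
      · simpa [vec, Fin.sum_univ_three, M] using hu
      · simp [wt, Finset.card_filter, Fin.sum_univ_three]
    have := wt_le a
    omega
  have zz : ∀ {z a}, (∀ i, f z (e i) = 0) → C (vec e z a) → f z z = 0 := fun hz hu =>
    (h.even g hz (h.iso _ hu)).1 (by rcases k hz hu with c | c <;> simp [c])
  set Y := Submodule.span F (Set.range e)
  obtain ⟨z, a, hz, hu, zY, y, hy, yu⟩ := h.out g (by omega) le_rfl (by rw [h.rank g]; omega)
  have z0 : z ≠ 0 := fun c => zY (c ▸ zero_mem _)
  have wa : wt a = 2 := (k hz hu).resolve_left fun c => yu (by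
    rw [wt_zero.1 c, vec, ← dv_dot h.form]; simpa using h.kill hz hy)
  set U := Y ⊔ Submodule.span F {z}
  have zU : z ∈ U := Submodule.mem_sup_right (Submodule.mem_span_singleton_self z)
  have kU : U ≤ dotKer (dv σ f z) := sup_le (h.kill hz)
    ((Submodule.span_singleton_le_iff_mem _ _).2 ((dv_dot h.form _ _).trans (zz hz hu)))
  have hk := h.ker_lt z0
  have κ : ∀ z', z' ∉ U → f z z' ≠ 0 := fun z' a c => by
    have h1 : Y < U := left_lt_sup.2 fun d => zY ((Submodule.span_singleton_le_iff_mem _ _).1 d)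
    have h2 : U < dotKer (dv σ f z) := kU.lt_of_ne fun d =>
      a (d ▸ (dv_dot h.form _ _).trans (h.form.map_eq_zero.1 c))
    have h3 := Submodule.finrank_lt_finrank_of_lt h1
    have h4 := Submodule.finrank_lt_finrank_of_lt h2
    rw [h.rank g] at h3
    omega
  obtain ⟨z', a', hz', hu', zU', wa'⟩ :
      ∃ z' a', (∀ i, f z' (e i) = 0) ∧ C (vec e z' a') ∧ z' ∉ U ∧ wt a' = 2 := by
    obtain ⟨z', a', hz', hu', zU', -⟩ := h.out g (by omega) (U := U) le_sup_left
      ((Submodule.finrank_mono kU).trans_lt hk)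
    rcases k hz' hu' with c | c
    · refine ⟨z + f z z' • z', a, fun i => by simp [h.form.add_left, h.form.smul_left, hz, hz'], ?_,
        fun d => zU' ((U.smul_mem_iff (κ _ zU')).1 ((U.add_mem_iff_right zU).1 d)), wa⟩
      have := h.conj _ _ hu hu'
      rw [h.fvec g hz hz', wt_zero.1 c] at this
      simpa [vec, add_assoc] using this
    · exact ⟨z', a', hz', hu', zU', c⟩
  have κ0 := κ _ zU'
  have l0 : w * σ (f z z') ≠ 0 := mul_ne_zero w0 ((map_ne_zero σ).2 κ0)
  have u1 := h.mon g hz hu (a' := ![1, 1, 0])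
    (by rw [wa]; simp [wt, Finset.card_filter, Fin.sum_univ_three]) (by omega)
  have u2 := h.mon g hz' hu' (a' := ![w * σ (f z z'), 0, 1])
    (by rw [wa']; simp [wt, Finset.card_filter, Fin.sum_univ_three, w0, κ0]) (by omega)
  have u3 := h.conj _ _ u1 u2
  have e1 : f (vec e z ![1, 1, 0]) (vec e z' ![w * σ (f z z'), 0, 1]) = w * f z z' := by
    simp only [h.fvec g hz hz', Fin.sum_univ_three]
    simp [h.bar.invol]
    grind
  have := k (z := z + (w * f z z') • z') (a := ![w, 1, w * f z z'])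
    (fun i => by simp [h.form.add_left, h.form.smul_left, hz, hz']) (by
      convert u3 using 1
      have := B2.norm h.bar κ0
      ext x
      rw [e1]
      simp [vec, Fin.sum_univ_three]
      linear_combination e 0 x * (nw - w ^ 2 * this - w * hw))
  simp [wt, Finset.card_filter, Fin.sum_univ_three, w0, κ0] at this

omit g in
theorem four {e : Fin 4 → ι → F} (g : Gd f C e) (h5 : Fintype.card ι = 5) :
    ∃ e' : Fin 5 → ι → F, Gd f C e' := by
  classical
  by_contra hn
  have h2 := B2.two h.bar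
  obtain ⟨w, hw, w0, w1⟩ := B2.om h.bar
  have nw := B2.norm h.bar w0
  obtain ⟨z, a, hz, hu, zY, -⟩ := h.out g (by omega) le_rfl (by rw [h.rank g]; omega)
  have zz : f z z = 1 := B2.fix h.bar (fun c => by
    have h1 := Submodule.finrank_lt_finrank_of_lt ((h.kill hz).lt_of_ne fun d =>
      zY (d ▸ (dv_dot h.form _ _).trans c))
    have h2 := h.ker_lt (z := z) fun c => zY (c ▸ zero_mem _)
    rw [h.rank g] at h1
    omega) (h.herm z z)
  have wa : wt a = 3 := by
    have n1 : wt a ≠ 1 := fun c => hn (h.ext g (by omega) hz hu c)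
    have := mt (h.even g hz (h.iso _ hu)).1 (by simp [zz])
    have l := wt_le a
    rw [Nat.not_even_iff_odd, Nat.odd_iff] at this
    omega
  have u : ∀ a', wt a' = 3 → C (vec e z a') := fun a' c => h.mon g hz hu (c.trans wa.symm) (by omega)
  have u1 := h.conj _ _ (u ![1, 1, 1, 0] (by simp [wt, Finset.card_filter, Fin.sum_univ_four]))
    (u ![w, w, 0, 1] (by simp [wt, Finset.card_filter, Fin.sum_univ_four, w0]))
  have z0 : ∀ i, f 0 (e i) = 0 := fun _ => h.form.zero_left _
  have u2 : C (vec e 0 ![σ w, σ w, 1, 1]) := by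
    convert u1 using 1
    ext x
    simp only [h.fvec g hz hz, zz]
    simp [vec, Fin.sum_univ_four]
    grind
  have u3 := h.conj _ _ (u ![σ w, σ w, 1, 0]
    (by simp [wt, Finset.card_filter, Fin.sum_univ_four, w0])) u2
  refine hn (h.ext g (by omega) hz (a := ![0, 0, 0, 1]) ?_
    (by simp [wt, Finset.card_filter, Fin.sum_univ_four]))
  convert u3 using 1
  ext x
  simp only [h.fvec g hz z0, h.form.zero_right]
  simp [vec, Fin.sum_univ_four, h.bar.invol]
  grind

theorem top (hr : r = Fintype.card ι) (h4 : 4 ≤ r) (h5 : r ≤ 5)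
    (hm : ¬ ∀ u, u ≠ 0 → C u → ∃ i j, i ≠ j ∧ f u (e i) ≠ 0 ∧ ∀ m, m ≠ i → m ≠ j → f u (e m) = 0)
    (u : ι → F) (hu : f u u = 0) : C u := by
  have hY : Submodule.span F (Set.range e) = ⊤ :=
    Submodule.eq_top_of_finrank_eq (by rw [h.rank g, finrank_fintype_fun_eq_card, hr])
  have z0 : ∀ i, f 0 (e i) = 0 := fun _ => h.form.zero_left _
  have k : ∀ u, f u u = 0 → ∃ a, u = vec e 0 a ∧ (wt a = 0 ∨ wt a = 2 ∨ wt a = 4) := fun u hu => by
    obtain ⟨z, a, hz, rfl⟩ := h.dec g u
    obtain rfl : z = 0 := by_contra fun c => h.notMem g hz c (hY ▸ trivial)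
    obtain ⟨n, hn⟩ := (h.even g hz hu).2 (h.form.zero_left _)
    have := wt_le a
    exact ⟨a, rfl, by omega⟩
  push Not at hm
  obtain ⟨v, v0, hv, hm⟩ := hm
  obtain ⟨a, rfl, wa⟩ := k v (h.iso _ hv)
  replace wa : wt a = 4 := by
    rcases wa with c | c | c
    · exact absurd (by simp [vec, wt_zero.1 c]) v0
    · obtain ⟨i, j, ij, hi, -, d⟩ := wt_two c
      obtain ⟨m, m1, m2, m3⟩ := hm i j ij (by rwa [h.co g z0])
      exact absurd (by rw [h.co g z0, d m m1 m2]) m3
    · exact c
  obtain ⟨a', rfl, wa'⟩ := k u hu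
  rcases or_assoc.2 wa' with c | c
  · exact h.low g (by omega) c
  by_cases d : r = 4
  swap
  · exact h.mon g z0 hv (c.trans wa.symm) (by omega)
  subst d
  have n := wt_eq.1 wa
  have n' := wt_eq.1 c
  obtain ⟨p, hp⟩ : ∃ p, p = ∏ i, a' i / a i := ⟨_, rfl⟩
  have p0 : p ≠ 0 := hp ▸ Finset.prod_ne_zero_iff.2 fun i _ => div_ne_zero (n' i) (n i)
  have := h.smul _ p (h.scal g z0 hv (b := fun i => p⁻¹ * (a' i / a i)) (by
    have := B2.norm h.bar p0
    rw [h.bar.eq] at this
    rw [Finset.prod_mul_distrib, ← hp, Finset.prod_const, Finset.card_fin, inv_pow,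
      inv_mul_eq_one₀ (pow_ne_zero _ p0)]
    linear_combination p * this))
  simpa [vec, Finset.smul_sum, smul_smul, mul_assoc, n, p0] using this

omit g in
theorem all (h4 : 4 ≤ Fintype.card ι) (h5 : Fintype.card ι ≤ 5) {e₀ : Fin 3 → ι → F}
    (g : Gd f C e₀) (hm : ∀ {r : ℕ} (e : Fin r → ι → F), r = Fintype.card ι → Gd f C e →
      ¬ ∀ u, u ≠ 0 → C u → ∃ i j, i ≠ j ∧ f u (e i) ≠ 0 ∧ ∀ m, m ≠ i → m ≠ j → f u (e m) = 0)
    (u : ι → F) (hu : f u u = 0) : C u := by
  obtain ⟨e, g⟩ := h.three g h4 h5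
  rcases h4.eq_or_lt with c | c
  · exact h.top g c le_rfl (by omega) (hm e c g) u hu
  obtain ⟨e, g⟩ := h.four g (by omega)
  exact h.top g (by omega) (by omega) le_rfl (hm e (by omega) g) u hu

end U2

/-- `C u := Tv P u (dv σ f u)`; by `tv_form` all transvections of `P` have this form (skew elements
are `0, 1`).  For opposite centres `a, b` with `f a b = 1`, `e₀ = a + ω b`, `e₁ = a + ω² b` is a good
frame.  If `¬ Re P`, `re_of_pair` gives a centre of weight one, `ext` a frame with `r = 3`.  The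
hypothesis `hm` of `U2.all` is `mono_false` with `ε i = dv σ f (e i)`. -/
theorem Hyp.all_cn_two (h : Hyp P) (h0 : Fam0 P ⊥) (hq : Unitary.IsBar 2 σ) (hf : SForm σ 1 f)
    (hP : P ≤ iso f) (h4 : 4 ≤ Fintype.card ι) (h5 : Fintype.card ι ≤ 5) :
    Re P ∨ ∀ u, f u u = 0 → Cn P σ f u := by
  have := hq.finite
  have h2 := B2.two hq
  have herm : ∀ u v, σ (f u v) = f v u := fun u v => by rw [hf.herm v u, one_mul]
  have sk : ∀ {c : F}, c ≠ 0 → σ c = -c → c = 1 := fun {c} a b =>
    B2.fix hq a (by linear_combination b - c * h2)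
  have tf : ∀ {v φ}, v ≠ 0 → φ ≠ 0 → Tv P v φ → φ = dv σ f v := fun a b c => by
    obtain ⟨-, d, d0, d1, e⟩ := tv_form hf hP a b c
    rw [e, sk d0 d1, one_smul]
  have hg : ∀ N : Subgroup (GL ι F), (∀ v φ, v ≠ 0 → φ ≠ 0 → Tv P v φ → Tv N v φ) → P ≤ N :=
    fun N a => h0.gen N fun v φ b => a v φ b.1 b.2.1 b.tv
  have U : U2 σ f fun u => Tv P u (dv σ f u) := by
    refine ⟨hq, hf, fun u a => (dv_dot hf u u).symm.trans a.dot, fun u c a => ?_, fun u w a b => ?_,
      fun W w0 hW => Fr.out h0.ir hg w0 fun v φ a b c => ?_⟩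
    · by_cases c0 : c = 0
      · simpa [c0] using Tv.zero_left P _
      rw [dv_smul hf]
      exact Tv.smul_swap' (by rwa [smul_smul, B2.norm hq c0, one_smul]) (by simp [a.dot])
    · convert b.conj_tv a using 1
      · rw [dv_dot hf]
      · rw [dv_add hf, dv_smul hf, dv_dot hf, herm]
        ext x
        simp only [Pi.add_apply, Pi.sub_apply, Pi.smul_apply, smul_eq_mul]
        linear_combination (f w u * dv σ f w x) * h2
    · obtain rfl := tf a b c
      exact or_iff_not_imp_right.2 fun d => by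
        push Not at d
        obtain ⟨w, d, d'⟩ := d
        exact hW v c w d (by rwa [dv_dot hf] at d')
  refine or_iff_not_imp_left.2 fun hr u hu c hc => ?_
  by_cases c0 : c = 0
  · simpa [c0] using Tv.zero_right P u
  rw [sk c0 hc, one_smul]
  obtain ⟨a, α, fa⟩ := h0.ex
  obtain ⟨y, η, fy, ya, -⟩ := h0.mid fa.1 fa.2.1
  obtain rfl := tf fa.1 fa.2.1 fa.tv
  obtain rfl := tf fy.1 fy.2.1 fy.tv
  rw [dv_dot hf] at ya
  obtain ⟨b, cb, ab⟩ : ∃ b, Tv P b (dv σ f b) ∧ f a b = 1 := ⟨_, U.smul y (f a y) fy.tv, by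
    rw [hf.smul_right, mul_comm, B2.norm hq ya]⟩
  have ba : f b a = 1 := by rw [← herm, ab, map_one]
  have aa := U.iso _ fa.tv
  have bb := U.iso _ cb
  have b0 : b ≠ 0 := fun e => by simp [e, hf.zero_left] at ba
  obtain ⟨w, hw, w0, w1⟩ := B2.om hq
  have nw := B2.norm hq w0
  have ex : ∀ s t s' t' : F, f (s • a + t • b) (s' • a + t' • b) = s * σ t' + t * σ s' := by
    intros
    simp only [hf.add_left, hf.add_right, hf.smul_left, hf.smul_right, aa, bb, ab, ba]
    ring
  have pc : ∀ s t : F, s * σ t + t * σ s = 0 → Tv P (s • a + t • b) (dv σ f (s • a + t • b)) :=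
    fun s t e => by
      by_cases s0 : s = 0
      · simpa [s0] using U.smul b t cb
      by_cases t0 : t = 0
      · simpa [t0] using U.smul a s fa.tv
      have e1 : s * σ t = 1 := B2.fix hq (mul_ne_zero s0 ((map_ne_zero σ).2 t0)) (by
        rw [map_mul, hq.invol]; linear_combination e - s * σ t * h2)
      obtain rfl : s = t := mul_right_cancel₀ ((map_ne_zero σ).2 t0) (e1.trans (B2.norm hq t0).symm)
      simpa [ab] using U.smul _ s (U.conj _ _ fa.tv cb)
  let t : Fin 2 → F := ![w, σ w]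
  have g : Gd f (fun u => Tv P u (dv σ f u)) fun i => (1 : F) • a + t i • b := by
    refine ⟨fun i j => ?_, fun i j ij c c0 => ?_⟩
    · rw [ex]
      fin_cases i <;> fin_cases j <;> simp [t, hq.invol] <;> grind
    · have := B2.norm hq c0
      rw [show (1 : F) • a + t i • b + c • ((1 : F) • a + t j • b) = (1 + c) • a + (t i + c * t j) • b by
        module]
      exact pc _ _ (by fin_cases i <;> fin_cases j <;> simp [t, hq.invol] at ij ⊢ <;> grind)
  obtain ⟨v, cv, hv⟩ : ∃ v, Tv P v (dv σ f v) ∧ f v b * f a v + f v a * f b v ≠ 0 := by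
    by_contra hn
    push Not at hn
    refine hr (h0.re_of_pair fa (fl_bot b0 (fun e => b0 (dv_injective hf (e.trans (dv_zero hf).symm))) cb)
      (by simp [dv_dot hf, ba]) (by simp [dv_dot hf, ab]) fun v φ fv => ?_)
    obtain rfl := tf fv.1 fv.2.1 fv.tv
    simpa [dv_dot hf, ab, ba] using hn v fv.tv
  obtain ⟨z, x, hz, e⟩ := U.dec g v
  have hx : ∀ i, x i = f v a + σ (t i) * f v b := fun i => by
    rw [← U.co g hz x i, ← e, hf.add_right, hf.smul_right, hf.smul_right, map_one, one_mul]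
  have wx : wt x = 1 := by
    have p := U.par g hz x
    rw [U.fvec g hz hz, add_left_inj, Fin.sum_univ_two, hx, hx] at p
    simp only [t, map_add, map_mul, herm, hq.invol, cons_val_zero, cons_val_one] at p
    have := wt_le x
    by_contra c
    rcases (by omega : wt x = 0 ∨ wt x = 2) with d | d <;> rw [d] at p <;> apply hv <;> grind
  obtain ⟨e₀, g₀⟩ := U.ext g le_rfl hz (e ▸ cv) wx
  refine U.all h4 h5 g₀ (fun e hr g hm => mono_false h2 h.perf hg hr (e := e)
    (ε := fun i => dv σ f (e i)) (fun i j => by simp [dv_dot hf, g.on, eq_comm])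
    ⟨_, _, fa.1, fa.2.1, fa.tv⟩ fun v φ a b c => ?_) u hu
  obtain rfl := tf a b c
  obtain ⟨i, j, ij, d, d'⟩ := hm v a c
  exact ⟨i, j, ij, by simpa only [dv_dot hf, herm] using B2.norm hq d, fun m m1 m2 => by
    simpa only [dv_dot hf, hf.map_eq_zero (u := e m), and_self] using d' m m1 m2⟩

end Cfsg.Lib.TVn
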