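import Cfsg.Agent.Lib.TVn.Uni

/-!
# Unitary transvection groups: all isotropic points are centres
-/

set_option autoImplicit false

namespace Cfsg.Lib.TVn

open scoped MatrixGroups Matrix commutatorElement
open Cfsg.Geo Cfsg.Lib.Asch Cfsg.Lib.Linear Module Matrix

variable {ι : Type} [Fintype ι] [DecidableEq ι] {F : Type*} [Field F] {P : Subgroup (GL ι F)}
  {k : Subfield F}

variable {σ : F →+* F} {q : ℕ} {f : (ι → F) → (ι → F) → F}

theorem uniC_quad (h3 : 3 ≤ Nat.card k) (α β : F) {γ : F} (h : γ ≠ 0) :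
    ∃ t ∈ k, α + t * β + t ^ 2 * γ ≠ 0 := by
  have : Finite k := Nat.finite_of_card_ne_zero (by omega)
  let _ := Fintype.ofFinite k
  rw [Nat.card_eq_fintype_card] at h3
  obtain ⟨c, d, e, a1, a2, a3⟩ := Fintype.two_lt_card_iff.1 (show 2 < Fintype.card k by omega)
  have ne : ∀ {c d : k}, c ≠ d → (c : F) - d ≠ 0 := fun n => sub_ne_zero.2 fun e => n (Subtype.ext e)
  by_contra hn
  push Not at hn
  refine mul_ne_zero (mul_ne_zero (mul_ne_zero (ne a1) (ne a2)) (ne a3)) h ?_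
  linear_combination ((d : F) - e) * hn c c.2 - ((c : F) - e) * hn d d.2 + ((c : F) - d) * hn e e.2

/-- A skew-hermitian polarity whose values are the axes. -/
structure UPol (P : Subgroup (GL ι F)) (k : Subfield F) (σ : F →+* F) (θ : (ι → F) → ι → F) : Prop where
  add : ∀ u w, θ (u + w) = θ u + θ w
  smul : ∀ a u, θ (a • u) = σ a • θ u
  skew : ∀ u w, θ u ⬝ᵥ w = -σ (θ w ⬝ᵥ u)
  fix : ∀ a, σ a = a ↔ a ∈ k
  inv : ∀ a, σ (σ a) = a
  fl : ∀ {u ψ}, Fl P k u ψ → ∃ c ∈ k, c ≠ 0 ∧ ψ = c • θ u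

namespace UPol

variable {θ : (ι → F) → ι → F} (hθ : UPol P k σ θ) {u w x y z a b d : ι → F}
include hθ

theorem sub (u w : ι → F) : θ (u - w) = θ u - θ w := by
  rw [sub_eq_add_neg, ← neg_one_smul F w, hθ.add, hθ.smul, map_neg, map_one, neg_one_smul, sub_eq_add_neg]

theorem cen {ψ : ι → F} (h : Fl P k u ψ) : Fl P k u (θ u) := by
  obtain ⟨c, hc, c0, rfl⟩ := hθ.fl h
  simpa [c0] using h.smul (k.inv_mem hc) (inv_ne_zero c0)

theorem smul_fl (h : Fl P k u (θ u)) {s : F} (hs : s ≠ 0) : Fl P k (s • u) (θ (s • u)) :=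
  hθ.cen (h.rescale hs)

theorem conj_fl (h : Fl P k u (θ u)) (h' : Fl P k w (θ w)) {c : F} (hc : c ∈ k) :
    Fl P k (u + (c * θ w ⬝ᵥ u) • w) (θ (u + (c * θ w ⬝ᵥ u) • w)) := by
  have := hθ.cen (h.conj_tv (h'.2.2 c hc))
  rwa [smul_dotProduct, smul_eq_mul] at this

theorem lift (hx : Fl P k x (θ x)) (h : Fl P k u (θ u)) (e : θ x ⬝ᵥ u = 1) {c : F}
    (h0 : θ (u + c • x) ⬝ᵥ (u + c • x) = 0) : Fl P k (u + c • x) (θ (u + c • x)) := by
  have hc : c ∈ k := by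
    rw [hθ.add, hθ.smul] at h0
    simp only [add_dotProduct, dotProduct_add, smul_dotProduct, dotProduct_smul, smul_eq_mul,
      h.dot, hx.dot, e, hθ.skew u x, map_one] at h0
    exact (hθ.fix c).1 (by linear_combination h0)
  simpa only [e, mul_one] using hθ.conj_fl h hx hc

theorem ni_smul (h : θ a ⬝ᵥ a ≠ 0) {c : F} (hc : c ≠ 0) : θ (c • a) ⬝ᵥ (c • a) ≠ 0 := by
  simpa [hθ.smul, hc] using h

theorem ex_ni (h3 : 3 ≤ Nat.card k) (a : ι → F) (h : θ b ⬝ᵥ b ≠ 0) :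
    ∃ t ∈ k, θ (a + t • b) ⬝ᵥ (a + t • b) ≠ 0 := by
  obtain ⟨t, ht, e⟩ := uniC_quad h3 (θ a ⬝ᵥ a) (θ a ⬝ᵥ b + θ b ⬝ᵥ a) h
  refine ⟨t, ht, fun n => e ?_⟩
  simp only [hθ.add, hθ.smul, (hθ.fix t).2 ht, add_dotProduct, dotProduct_add, smul_dotProduct,
    dotProduct_smul, smul_eq_mul] at n
  linear_combination n

end UPol

/-- The projections of the centres opposite to `x`. -/
def UD (P : Subgroup (GL ι F)) (k : Subfield F) (θ : (ι → F) → ι → F) (x y d : ι → F) : Prop :=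
  ∃ u, Fl P k u (θ u) ∧ θ x ⬝ᵥ u = 1 ∧ u + (θ y ⬝ᵥ u) • x - y = d

/-- The translations of the set of lines inside `UD`. -/
def US (P : Subgroup (GL ι F)) (k : Subfield F) (θ : (ι → F) → ι → F) (x y : ι → F) :
    Submodule F (ι → F) where
  carrier := {w | ∀ d, (∀ c : F, UD P k θ x y (c • d)) → ∀ a c : F, UD P k θ x y (c • (d + a • w))}
  zero_mem' d h a c := by simpa using h c
  add_mem' h h' d e a c := by simpa only [smul_add a, ← add_assoc] using h' _ (h d e a) a c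
  smul_mem' s _ h d e a c := by simpa only [smul_smul] using h d e (a * s) c

namespace UPol

variable {θ : (ι → F) → ι → F} (hθ : UPol P k σ θ) {u w x y z a b d : ι → F}
  (hx : Fl P k x (θ x)) (hy : Fl P k y (θ y)) (xy : θ x ⬝ᵥ y = 1)
include hθ hx hy xy

omit hθ hx in
theorem ud_zero : UD P k θ x y 0 := ⟨y, hy, xy, by simp [hy.dot]⟩

omit hy in
theorem u1 (hd : UD P k θ x y d) (hw : UD P k θ x y w) (n : θ (d - w) ⬝ᵥ (d - w) ≠ 0) {μ : F}
    (hμ : μ ∉ k) : UD P k θ x y ((1 + μ)⁻¹ • (d + μ • w)) := by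
  have yx : θ y ⬝ᵥ x = -1 := by rw [hθ.skew, xy, map_one]
  obtain ⟨u, fu, xu, rfl⟩ := hd
  obtain ⟨z, fz, xz, rfl⟩ := hw
  have s0 : θ z ⬝ᵥ u - σ (θ z ⬝ᵥ u) ≠ 0 := fun e => n (by
    rw [show u + (θ y ⬝ᵥ u) • x - y - (z + (θ y ⬝ᵥ z) • x - y) = u - z + (θ y ⬝ᵥ u - θ y ⬝ᵥ z) • x by module]
    simp only [hθ.add, hθ.sub, hθ.smul, add_dotProduct, dotProduct_add, sub_dotProduct, dotProduct_sub,
      smul_dotProduct, dotProduct_smul, smul_eq_mul, fu.dot, fz.dot, hx.dot, xu, xz, hθ.skew u x,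
      hθ.skew z x, hθ.skew u z, map_one]
    linear_combination -e)
  have m1 : μ - σ μ ≠ 0 := sub_ne_zero.2 fun e => hμ ((hθ.fix _).1 e.symm)
  have m2 : 1 + μ ≠ 0 := fun e => hμ (eq_neg_of_add_eq_zero_right e ▸ k.neg_mem k.one_mem)
  set s := θ z ⬝ᵥ u with hs
  obtain ⟨c, hc, hc'⟩ : ∃ c, c * (s - σ s) = μ - σ μ ∧ σ c = c :=
    ⟨(μ - σ μ) / (s - σ s), div_mul_cancel₀ _ s0, by
      rw [map_div₀, map_sub, map_sub, hθ.inv, hθ.inv, ← neg_sub, ← neg_sub s, neg_div_neg_eq]⟩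
  have c0 : c ≠ 0 := fun e => m1 (by rw [← hc, e, zero_mul])
  obtain ⟨e, he, he'⟩ : ∃ e, c * (s + e) = μ ∧ σ e = e :=
    ⟨μ / c - s, by field_simp; ring, by
      rw [map_sub, map_div₀, hc']
      field_simp
      linear_combination hc⟩
  have f1 := hθ.conj_fl fz hx ((hθ.fix e).1 he')
  rw [xz, mul_one] at f1
  have f2 := hθ.smul_fl (hθ.conj_fl fu f1 ((hθ.fix c).1 hc')) (inv_ne_zero m2)
  have e1 : θ (z + e • x) ⬝ᵥ u = s + e := by simp [hθ.add, hθ.smul, he', xu, ← hs]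
  rw [e1, he] at f2
  have : (1 + μ)⁻¹ * (1 + μ) = 1 := inv_mul_cancel₀ m2
  refine ⟨_, f2, by simpa [xu, xz, hx.dot, mul_add] using this, ?_⟩
  simp only [dotProduct_smul, dotProduct_add, yx, smul_eq_mul]
  linear_combination (norm := module) this • y

theorem u0 {μ : F} (hμ : μ ∉ k) (hd : UD P k θ x y d) (n : θ d ⬝ᵥ d ≠ 0) (c : F) : UD P k θ x y (c • d) := by
  have key : ∀ {d c}, UD P k θ x y d → θ d ⬝ᵥ d ≠ 0 → c ∉ k → UD P k θ x y (c • d) := fun {d c} hd n hc => by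
    simpa using hθ.u1 hx xy hd (ud_zero hy xy) (by simpa using n) (μ := c⁻¹ - 1) fun e =>
      hc (by simpa using k.inv_mem (k.add_mem e k.one_mem))
  by_cases hc : c ∈ k
  swap
  · exact key hd n hc
  by_cases c0 : c = 0
  · simpa [c0] using ud_zero hy xy
  have m0 : μ ≠ 0 := fun e => hμ (e ▸ k.zero_mem)
  have := key (key hd n hμ) (hθ.ni_smul n m0) (c := c / μ) fun h => hμ (by simpa [c0] using k.div_mem hc h)
  rwa [smul_smul, div_mul_cancel₀ _ m0] at this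

theorem mem_us (h3 : 3 ≤ Nat.card k) {μ : F} (hμ : μ ∉ k) (hw : UD P k θ x y w) (n : θ w ⬝ᵥ w ≠ 0) :
    w ∈ US P k θ x y := fun d hd a c => by
  by_cases e : c * a = 0
  · simpa [smul_add, smul_smul, e] using hd c
  have n' := hθ.ni_smul n e
  obtain ⟨t, ht, h⟩ := hθ.ex_ni h3 (c • d + μ • (c * a) • w) n'
  have m : -(μ + t) ∉ k := fun h => hμ (by simpa using k.sub_mem (k.neg_mem h) ht)
  have m0 : -(μ + t) ≠ 0 := fun e => m (e ▸ k.zero_mem)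
  have m1 : (-(μ + t))⁻¹ ∉ k := fun h => m (by simpa using k.inv_mem h)
  have m2 : 1 + (-(μ + t))⁻¹ ≠ 0 := fun e => m1 (eq_neg_of_add_eq_zero_right e ▸ k.neg_mem k.one_mem)
  generalize hν : -(μ + t) = ν at m m0 m1 m2
  have := hθ.u1 hx xy (hd ((1 + ν⁻¹) * c)) (hθ.u0 hx hy xy hμ hw n ((1 + ν⁻¹) * ν * (c * a))) (by
    convert hθ.ni_smul h m2 using 3 <;> rw [← hν] <;> module) m1
  have m3 : ν + 1 ≠ 0 := fun e => m (eq_neg_of_add_eq_zero_left e ▸ k.neg_mem k.one_mem)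
  convert this using 1
  match_scalars <;> field_simp

theorem ud_le (h3 : 3 ≤ Nat.card k) {μ : F} (hμ : μ ∉ k) (hw : UD P k θ x y w) (n : θ w ⬝ᵥ w ≠ 0)
    (hd : UD P k θ x y d) : d ∈ US P k θ x y := by
  obtain ⟨t, ht, h⟩ := hθ.ex_ni h3 d n
  by_cases t0 : t = 0
  · exact hθ.mem_us hx hy xy h3 hμ hd (by simpa [t0] using h)
  obtain ⟨r, hr, h'⟩ := hθ.ex_ni h3 (d + μ • (-t) • w) (hθ.ni_smul n (neg_ne_zero.2 t0))
  have m : μ + r ∉ k := fun h => hμ (by simpa using k.sub_mem h hr)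
  have m2 : 1 + (μ + r) ≠ 0 := fun e => m (eq_neg_of_add_eq_zero_right e ▸ k.neg_mem k.one_mem)
  rw [add_assoc, ← add_smul] at h'
  have := hθ.mem_us hx hy xy h3 hμ (hθ.u1 hx xy hd (hθ.u0 hx hy xy hμ hw n (-t))
    (by rwa [neg_smul, sub_neg_eq_add]) m) (hθ.ni_smul h' (inv_ne_zero m2))
  rw [Submodule.smul_mem_iff _ (inv_ne_zero m2)] at this
  exact (Submodule.add_mem_iff_left _ (Submodule.smul_mem _ _ (Submodule.smul_mem _ _
    (hθ.mem_us hx hy xy h3 hμ hw n)))).1 this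

theorem all (hF : Fam P k) (h3 : 3 ≤ Nat.card k) (hz : Fl P k z (θ z)) (xz : θ x ⬝ᵥ z = 1)
    (yz : θ y ⬝ᵥ z ∉ k) (hu : u ≠ 0) (h0 : θ u ⬝ᵥ u = 0) : Fl P k u (θ u) := by
  have yx : θ y ⬝ᵥ x = -1 := by rw [hθ.skew, xy, map_one]
  let π : (ι → F) →ₗ[F] ι → F :=
    { toFun := fun v => v + (θ y ⬝ᵥ v) • x - (θ x ⬝ᵥ v) • y
      map_add' := fun a b => by simp only [dotProduct_add]; module
      map_smul' := fun c a => by simp only [dotProduct_smul, smul_eq_mul, RingHom.id_apply]; module }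
  have pe : ∀ v, θ x ⬝ᵥ v = 1 → π v = v + (θ y ⬝ᵥ v) • x - y := fun v e => by simp [π, e]
  have n : θ (z + (θ y ⬝ᵥ z) • x - y) ⬝ᵥ (z + (θ y ⬝ᵥ z) • x - y) ≠ 0 := fun e => by
    simp only [hθ.add, hθ.sub, hθ.smul, add_dotProduct, dotProduct_add, sub_dotProduct, dotProduct_sub,
      smul_dotProduct, dotProduct_smul, smul_eq_mul, hz.dot, hx.dot, hy.dot, xz, xy, yx, hθ.skew z x,
      hθ.skew z y, map_one] at e
    exact yz ((hθ.fix _).1 (by linear_combination e))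
  let U := (US P k θ x y).comap π
  have mU : ∀ v, Fl P k v (θ v) → θ x ⬝ᵥ v = 1 → v ∈ U := fun v f e =>
    hθ.ud_le hx hy xy h3 yz ⟨z, hz, xz, rfl⟩ n ⟨v, f, e, (pe v e).symm⟩
  have hP : P ≤ subspaceStabilizer U := hF.gen_opp (.inl h3) hx _ fun v φ f e _ c hc =>
    ⟨(f.2.2 c hc).dot, mem_subspaceStabilizer_of_le fun w hw => by
      rw [tvGL_mulVec]
      exact add_mem hw (U.smul_mem _ (mU v (hθ.cen f) e))⟩
  have top := hF.ir.eq_top U ((Submodule.ne_bot_iff U).2 ⟨y, mU y hy xy, hy.1⟩)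
    fun g hg w hw => (hP hg w).1 hw
  have k1 : ∀ u, θ u ⬝ᵥ u = 0 → θ x ⬝ᵥ u = 1 → Fl P k u (θ u) := fun u h0 e => by
    obtain ⟨w, hw, e', h⟩ := (top ▸ trivial : u ∈ U) 0 (fun c => by simpa using ud_zero hy xy) 1 1
    rw [pe u e, one_smul, one_smul, zero_add] at h
    have : u = w + (θ y ⬝ᵥ w - θ y ⬝ᵥ u) • x := by linear_combination (norm := module) -h
    rw [this] at h0 ⊢
    exact hθ.lift hx hw e' h0
  have k2 : ∀ u, θ u ⬝ᵥ u = 0 → θ x ⬝ᵥ u ≠ 0 → Fl P k u (θ u) := fun u h0 e => by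
    have := hθ.smul_fl (k1 ((θ x ⬝ᵥ u)⁻¹ • u) (by simp [hθ.smul, h0]) (by simp [e])) e
    rwa [smul_inv_smul₀ e] at this
  by_cases e : θ x ⬝ᵥ u = 0
  swap
  · exact k2 u h0 e
  obtain ⟨w, ψ, fw, a1, a2⟩ := hF.toFam0.mid hu hx.2.1
  obtain ⟨c, -, -, rfl⟩ := hθ.fl fw
  replace fw := hθ.cen fw
  replace a1 : θ w ⬝ᵥ u ≠ 0 := fun e => a1 (by simp [e])
  have := hθ.conj_fl (k2 (u + (θ w ⬝ᵥ u) • w) (by
    simp only [hθ.add, hθ.smul, add_dotProduct, dotProduct_add, smul_dotProduct, dotProduct_smul,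
      smul_eq_mul, h0, fw.dot, hθ.skew u w]
    ring) (by simpa [e] using ⟨a1, a2⟩)) fw (k.neg_mem k.one_mem)
  simpa [fw.dot] using this

end UPol

/-- **All isotropic points are centres, `q ≥ 3`.**  By `tv_form`, `ξ = δ • dv x` with `δ` skew; put
`θ u = δ • dv u`, so `θ u w = -σ (θ w u)`, flags are the `(u, c θ u)`, `c ∈ kˣ`, with `Cn u`, and
`η = θ y`, `ζ = θ z`.  Centres are closed under scalars and `u ↦ u + c θ_w(u) w`, `c ∈ k`.  For a centre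
`u` with `θ_x u = 1` let `pr u = u + θ_y(u) x - y ∈ W = ⟨x, y⟩^⊥`; `D` is the set of these.  An isotropic
`u` with `θ_x u = 1`, `pr u ∈ D` is a centre (`Dim3.Pol.lift`).  (U1) If `d' = pr u`, `w' = pr z'`,
`d' - w'` is non-isotropic and `μ ∉ k` then `(1 + μ)⁻¹ (d' + μ w') ∈ D`: `s = θ_{z'} u ∉ k` as
`θ_{u - z'} (u - z') = σ s - s`; write `μ = c (s + e)` with `c, e ∈ k` (`e` from `σ e = e`, see
`Dim3.Pol.step`) and conjugate `u` by the centre `z' + e x`.  With `z' = y` (`w' = 0`): non-isotropic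
`d ∈ D` gives `F d ⊆ D` (two steps).  Let `N` be the set of non-isotropic elements of `D`
(`pr z ∈ N`).  A quadratic polynomial `t ↦ θ(a + t b)(a + t b)` on `k` with `b` non-isotropic has at
most two roots.  (a) `span N ⊆ D`: for `d₀ ∈ span {w₁ … w_j} ⊆ D`, `w ∈ N`, `ν ≠ 0` choose `μ ∉ k` with
`d₀ - (ν / μ) w` non-isotropic, and apply (U1) to `d' = (1 + μ) d₀`, `w' = ((1 + μ) ν / μ) w`.
(b) `D ⊆ span N`: for `d ∈ D`, `w ∈ N` choose `t ∈ k` with `d - t w` non-isotropic; (U1) gives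
`(1 + μ)⁻¹ (d + μ t w) ∈ D` for `μ ∈ μ₀ + k`, `t ≠ 0`, one of which is non-isotropic.  (c) The centres
`u` with `θ_x u = 1` span `V` (`gen_opp` with the stabiliser of their span), so `D` spans `W`, `D = W`.
Finally for isotropic `u ≠ 0` with `θ_x u = 0` take a centre `w`, `θ_x w = 1`, `θ_w u ≠ 0`:
`u + θ_w(u) w` is a centre, and so is `u`. -/
theorem Fam.all_cn (hF : Fam P k) (hq : Unitary.IsBar q σ) (h3 : 3 ≤ Nat.card k)
    (hσ : ∀ a, σ a = a ↔ a ∈ k) (hf : SForm σ 1 f) (hP : P ≤ iso f) {x ξ y η z ζ : ι → F}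
    (fx : Fl P k x ξ) (fy : Fl P k y η) (fz : Fl P k z ζ) (xy : ξ ⬝ᵥ y = 1) (xz : ξ ⬝ᵥ z = 1)
    (yx : η ⬝ᵥ x = -1) (zx : ζ ⬝ᵥ x = -1) (yz : η ⬝ᵥ z ∉ k) (u : ι → F) (hu : f u u = 0) :
    Cn P σ f u := by
  obtain ⟨-, δ, d0, hδ, rfl⟩ := tv_form hf hP fx.1 fx.2.1 fx.tv
  have mk : ∀ {c}, σ c = -c → c / δ ∈ k := fun e => (hσ _).1 (by rw [map_div₀, e, hδ, neg_div_neg_eq])
  have hθ : UPol P k σ fun u => δ • dv σ f u :=
    ⟨fun u w => by rw [dv_add hf, smul_add], fun a u => by rw [dv_smul hf, smul_comm], fun u w => by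
      simp only [smul_dotProduct, dv_dot hf, smul_eq_mul, map_mul, hδ, hf.herm w u]
      ring, hσ, hq.invol, fun {u ψ} h => by
      obtain ⟨-, c, c0, hc, rfl⟩ := tv_form hf hP h.1 h.2.1 h.tv
      exact ⟨c / δ, mk hc, div_ne_zero c0 d0, by rw [smul_smul, div_mul_cancel₀ _ d0]⟩⟩
  obtain ⟨c, -, -, rfl⟩ := hθ.fl fy
  have c1 : c = 1 := by
    rw [smul_dotProduct, hθ.skew y x, xy] at yx
    simpa using yx
  rw [c1, one_smul] at fy yz
  intro c hc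
  by_cases u0 : u = 0
  · rw [u0, dv_zero hf, smul_zero]
    exact Tv.zero_right P 0
  have := (hθ.all fx fy xy hF h3 (hθ.cen fz) xz yz u0 (by simp [dv_dot hf, hu])).2.2 _ (mk hc)
  rwa [smul_smul, div_mul_cancel₀ _ d0] at this

end Cfsg.Lib.TVn
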