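import Cfsg.Agent.Lib.TVn.Pair
import Cfsg.Agent.Lib.TVn.Mul2
import Cfsg.Agent.Lib.TVn.U2
import Cfsg.Agent.Lib.TVn.UniC
import Cfsg.Agent.Lib.TVn.MonF

/-!
# Quasisimple irreducible groups containing a transvection
-/

set_option autoImplicit false

namespace Cfsg.Lib.TVn

open scoped MatrixGroups Matrix commutatorElement
open Cfsg.Geo Cfsg.Lib.Asch Cfsg.Lib.Linear Module Matrix

variable {ι : Type} [Fintype ι] [DecidableEq ι] {F : Type*} [Field F] {P : Subgroup (GL ι F)}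
  {k : Subfield F}

theorem Fam.classify [Finite F] (h : Hyp P) (hF : Fam P k) (h3 : 3 ≤ Nat.card k)
    (h4 : 4 ≤ Fintype.card ι) : P = specialLinear ι F ∨ Re P ∨ IsSU P := by
  by_cases hn : NL P k
  · rcases hF.nl hn h.top h.env with h1 | ⟨σ, f, hq, hσ, hf, hP, x, ξ, y, η, z, ζ, a⟩
    · exact .inr (.inl h1)
    · exact .inr (.inr ⟨σ, _, f, hq, hf, eq_su hq hf hP h.sl h4
        (hF.all_cn hq h3 hσ hf hP a.1 a.2.1 a.2.2.1 a.2.2.2.1 a.2.2.2.2.1 a.2.2.2.2.2.1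
          a.2.2.2.2.2.2.1 a.2.2.2.2.2.2.2)⟩)
  · exact .inl (le_antisymm h.sl (hF.sl_le h3 h.top hn))

theorem card_bot (p : ℕ) (hp : p.Prime) (h : (p : F) = 0) : Nat.card (⊥ : Subfield F) = p := by
  haveI : Fact p.Prime := ⟨hp⟩
  haveI : CharP F p := (CharP.charP_iff_prime_eq_zero hp).2 h
  exact Subfield.card_bot F p

/-- **The transvection theorem.** -/
theorem classify [Finite F] (h : Hyp P) (h4 : 4 ≤ Fintype.card ι)
    (h5 : Fintype.card ι ≤ 5 ∨ (2 : F) ≠ 0) {v φ : ι → F} (hv : v ≠ 0) (hφ : φ ≠ 0)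
    (ht : Tv P v φ) : P = specialLinear ι F ∨ Re P ∨ IsSU P := by
  have h0 := h.fam0 (fl_bot hv hφ ht)
  rcases h.exists_fam Fam0.mid hv hφ ht with ⟨k, h3, hF⟩ | ⟨h2, hr⟩ | ⟨h3, h'⟩
  · exact hF.classify h h3 h4
  · replace h5 := h5.resolve_right (not_not.2 h2)
    rcases h0.sg_or h2 hr h.top h4 with hs | hs
    swap
    · exact .inl (le_antisymm h.sl hs)
    rcases h.fam_two h2 h0 hs h5 with hF | hF
    swap
    · exact .inr (.inl hF)
    rcases hF.nl (fun a b e => hs.nl a.2.1 b.1 b.2.1 a.tv b.tv e) h.top h.env with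
      h1 | ⟨σ, f, hq, -, hf, hP, -⟩
    · exact .inr (.inl h1)
    rw [card_bot 2 Nat.prime_two (by exact_mod_cast h2)] at hq
    exact .inr ((h.all_cn_two h0 hq hf hP h4 h5).imp_right fun a =>
      ⟨σ, _, f, hq, hf, eq_su hq hf hP h.sl h4 a⟩)
  · rcases h0.three h3 h' with hF | hF
    · exact hF.classify h (card_bot 3 Nat.prime_three (by exact_mod_cast h3)).ge h4
    · exact .inr (.inl hF)

end Cfsg.Lib.TVn
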