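import Cfsg.Agent.Lib.TVn.Def

/-!
# Transvection groups: connectivity, generation and traces
-/

set_option autoImplicit false

namespace Cfsg.Lib.TVn

open scoped MatrixGroups Matrix commutatorElement
open Cfsg.Geo Cfsg.Lib.Asch Cfsg.Lib.Linear Module Matrix

variable {ι : Type} [Fintype ι] [DecidableEq ι] {F : Type*} [Field F] {P : Subgroup (GL ι F)}
  {k : Subfield F}

theorem cyc_avoid (h3 : 3 ≤ Nat.card k) {a b a' b' : F} (h : ¬ (a = 0 ∧ b = 0))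
    (h' : ¬ (a' = 0 ∧ b' = 0)) : ∃ c ∈ k, a + c * b ≠ 0 ∧ a' + c * b' ≠ 0 := by
  haveI : Finite k := Nat.finite_of_card_ne_zero (by omega)
  letI := Fintype.ofFinite k
  rw [Nat.card_eq_fintype_card] at h3
  obtain ⟨c, d, e, a1, a2, a3⟩ := Fintype.two_lt_card_iff.1 (show 2 < Fintype.card k by omega)
  have key : ∀ {a b : F} {c d : k}, c ≠ d → a + c * b = 0 → a + d * b = 0 → a = 0 ∧ b = 0 :=
    fun {a b c d} hcd e1 e2 => by
      have : b = 0 := (mul_eq_zero.1 (show ((c : F) - d) * b = 0 by linear_combination e1 - e2)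
        ).resolve_left (sub_ne_zero.2 fun e => hcd (Subtype.ext e))
      exact ⟨by simpa [this] using e1, this⟩
  by_contra hn
  push Not at hn
  by_cases b1 : a + c * b = 0
  · exact h' (key a3 (hn _ d.2 fun e => h (key a1 b1 e)) (hn _ e.2 fun e => h (key a2 b1 e)))
  · by_cases b2 : a + d * b = 0
    · exact h' (key a2 (hn _ c.2 b1) (hn _ e.2 fun e => h (key a3 b2 e)))
    · exact h' (key a1 (hn _ c.2 b1) (hn _ d.2 b2))

theorem cyc_mul {T : Type*} [Ring T] {S : Set T} (h : ∀ x ∈ S, ∀ y ∈ S, x * y ∈ S) {x y : T}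
    (hx : x ∈ AddSubgroup.closure S) (hy : y ∈ AddSubgroup.closure S) : x * y ∈ AddSubgroup.closure S := by
  induction hx using AddSubgroup.closure_induction with
  | mem x hx =>
    induction hy using AddSubgroup.closure_induction with
    | mem y hy => exact AddSubgroup.subset_closure (h x hx y hy)
    | zero => rw [mul_zero]; exact zero_mem _
    | add _ _ _ _ a b => rw [mul_add]; exact add_mem a b
    | neg _ _ a => rw [mul_neg]; exact neg_mem a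
  | zero => rw [zero_mul]; exact zero_mem _
  | add _ _ _ _ a b => rw [add_mul]; exact add_mem a b
  | neg _ _ a => rw [neg_mul]; exact neg_mem a

/-- The group elements which lie, together with their inverses, in the ring spanned by `S`. -/
def cycSub {T G : Type*} [Ring T] [Group G] {S : Set T} (h : ∀ x ∈ S, ∀ y ∈ S, x * y ∈ S) (h1 : (1 : T) ∈ S)
    (f : G →* T) : Subgroup G where
  carrier := {g | f g ∈ AddSubgroup.closure S ∧ f g⁻¹ ∈ AddSubgroup.closure S}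
  one_mem' := by
    simp only [Set.mem_ofPred_eq, inv_one, map_one, and_self]
    exact AddSubgroup.subset_closure h1
  mul_mem' := fun {a b} ha hb => ⟨by rw [map_mul]; exact cyc_mul h ha.1 hb.1,
    by rw [_root_.mul_inv_rev, map_mul]; exact cyc_mul h hb.2 ha.2⟩
  inv_mem' := fun {a} ha => ⟨ha.2, by rw [inv_inv]; exact ha.1⟩

/-- Let `U` be the span of the centres `x` of flags `(x, ξ)` with `ξ v ≠ 0`.  `U ≠ 0`: conjugate a
flag `(x₀, ξ₀)` by `g⁻¹` where `ξ₀ (g v) ≠ 0` (`Ir`).  `U` is invariant under every `1 + w ψ`, `(w, ψ)` a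
flag: if `ξ v ≠ 0` and `ψ x ≠ 0` then `w ∈ U` (clear if `ψ v ≠ 0`; otherwise the conjugate
`(x + ψ(x) w, ξ - ξ(w) ψ)` still has axis not killing `v`).  By `gen` (with the subspace stabiliser) and
`Ir.eq_top`, `U = ⊤`. -/
theorem Fam0.mid (h : Fam0 P k) {v χ : ι → F} (hv : v ≠ 0) (hχ : χ ≠ 0) :
    ∃ x ξ, Fl P k x ξ ∧ ξ ⬝ᵥ v ≠ 0 ∧ χ ⬝ᵥ x ≠ 0 := by
  let U := Submodule.span F {x | ∃ ξ, Fl P k x ξ ∧ ξ ⬝ᵥ v ≠ 0}
  have ex : ∀ {ρ y : ι → F}, y ∈ U → ρ ⬝ᵥ y ≠ 0 → ∃ x ξ, Fl P k x ξ ∧ ξ ⬝ᵥ v ≠ 0 ∧ ρ ⬝ᵥ x ≠ 0 :=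
    fun {ρ y} hy n => by
      by_contra hn
      push Not at hn
      exact n ((Submodule.span_le (p := dotKer ρ)).2 (by rintro x ⟨ξ, f, e⟩; exact hn x ξ f e) hy)
  have hP : P ≤ subspaceStabilizer U := h.gen _ fun w ψ f => ⟨f.dot, mem_subspaceStabilizer_of_le fun y hy => by
    rw [tvGL_mulVec]
    by_cases e : ψ ⬝ᵥ y = 0
    · rwa [e, zero_smul, add_zero]
    refine add_mem hy (U.smul_mem _ ?_)
    by_cases e' : ψ ⬝ᵥ v = 0
    swap
    · exact Submodule.subset_span ⟨ψ, f, e'⟩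
    obtain ⟨x, ξ, fx, a1, a2⟩ := ex hy e
    have m1 : x ∈ U := Submodule.subset_span ⟨ξ, fx, a1⟩
    have m2 : x + (ψ ⬝ᵥ x) • w ∈ U := Submodule.subset_span ⟨_, fx.conj_tv f.tv, by simpa [e'] using a1⟩
    exact (U.smul_mem_iff a2).1 ((U.add_mem_iff_right m1).1 m2)⟩
  obtain ⟨x₀, ξ₀, f0⟩ := h.ex
  obtain ⟨g, hg, e⟩ := h.ir v ξ₀ hv f0.2.1
  have f1 := f0.conj (P.inv_mem hg)
  have top := h.ir.eq_top U ((Submodule.ne_bot_iff U).2 ⟨_, Submodule.subset_span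
    ⟨_, f1, by rwa [inv_inv, ← dotProduct_mulVec]⟩, f1.1⟩) fun g hg w hw => (hP hg w).1 hw
  obtain ⟨y, hy⟩ := exists_dot_eq_one hχ
  exact ex (y := y) (top ▸ trivial) (by rw [dotProduct_comm, hy]; exact one_ne_zero)

/-- `T' - T ∈ k` for the two `3`-cycles (as `Dim3.Fam.three`). -/
theorem Fam.three (hF : Fam P k) {x ξ y η z ζ : ι → F} (fx : Fl P k x ξ) (fy : Fl P k y η)
    (fz : Fl P k z ζ) :
    (ξ ⬝ᵥ z) * (ζ ⬝ᵥ y) * (η ⬝ᵥ x) - (ξ ⬝ᵥ y) * (η ⬝ᵥ z) * (ζ ⬝ᵥ x) ∈ k := by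
  have := k.add_mem (k.sub_mem (hF.two fx (fy.conj_tv fz.tv)) (hF.two fx fy))
    (k.mul_mem (hF.two fz fy) (hF.two fx fz))
  convert this using 1
  simp only [dotProduct_add, sub_dotProduct, dotProduct_smul, smul_dotProduct, smul_eq_mul]
  ring

/-- As `Dim3.Fam.normalise`. -/
theorem Fam.normalise (hF : Fam P k) {x ξ y η : ι → F} (fx : Fl P k x ξ) (fy : Fl P k y η)
    (e1 : ξ ⬝ᵥ y ≠ 0) (e2 : η ⬝ᵥ x ≠ 0) : Fl P k ((ξ ⬝ᵥ y)⁻¹ • y) (-(η ⬝ᵥ x)⁻¹ • η) := by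
  have := (fy.rescale (inv_ne_zero e1)).smul (k.neg_mem (k.inv_mem (hF.two fx fy)))
    (neg_ne_zero.2 (inv_ne_zero (mul_ne_zero e1 e2)))
  rw [smul_smul] at this
  convert this using 2
  field_simp

/-- **The root groups opposite to `o = (x, ξ)` generate `P`.**  Call a flag `(v, φ)` good if
`Tv N v (c • φ)` for all `c ∈ k`; goodness is invariant under conjugation by `N` and under
rescaling, and flags opposite to `o` are good (`normalise`).  Let `b = (y, η)` be a flag.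
(1) `ξ y ≠ 0 = η x` (only if `3 ≤ |k|`): `(x, ξ(y) η)` is a flag (`Fl.comm`); `mid` gives `z = (z, ζ)` with
`ζ x ≠ 0`, `η z ≠ 0`; if `ξ z = 0` replace `z` by its conjugate under `1 + y η`; so `z` is opposite to `o`
and `η z ≠ 0`.  Conjugating `b` by `1 + c z ζ`, `c ∈ k` avoiding two values (`Dim3.exists_avoid`:
`ξ y + c ζ(y) ξ(z) ≠ 0`, `c η(z) ζ(x) ≠ 0`), gives a flag opposite to `o`.  (2) `η x ≠ 0 = ξ y`: dual
(`(y, η(x) ξ)` is a flag; take `z` with `ζ y ≠ 0`, `ξ z ≠ 0`, make `ζ x ≠ 0` by conjugating with `1 + y η`).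
(3) `ξ y = 0 = η x`: `mid` gives `z` with `ζ y ≠ 0`, `ξ z ≠ 0`; `z` is good by the previous cases and the
conjugate `b'` of `b` under `1 + z ζ` has `ξ y' ≠ 0`. -/
theorem Fam.gen_opp (hF : Fam P k) (h : 3 ≤ Nat.card k ∨ NL P k) {x ξ : ι → F} (fx : Fl P k x ξ)
    (N : Subgroup (GL ι F))
    (hN : ∀ v φ, Fl P k v φ → ξ ⬝ᵥ v = 1 → φ ⬝ᵥ x = -1 → ∀ c ∈ k, Tv N v (c • φ)) : P ≤ N := by
  have opp : ∀ {v φ}, Fl P k v φ → ξ ⬝ᵥ v ≠ 0 → φ ⬝ᵥ x ≠ 0 → ∀ c ∈ k, Tv N v (c • φ) :=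
    fun {v φ} f e1 e2 d hd => by
      have := (hN _ _ (hF.normalise fx f e1 e2) (by simp [e1]) (by simp [e2]) _
        (k.neg_mem (k.mul_mem hd (hF.two fx f)))).of_smul_left (inv_ne_zero e1)
      rw [smul_smul, smul_smul] at this
      convert this using 2
      field_simp
  have back : ∀ {y η z ζ : ι → F}, Tv N z ζ →
      (∀ c ∈ k, Tv N (y + (ζ ⬝ᵥ y) • z) (c • (η - (η ⬝ᵥ z) • ζ))) → ∀ c ∈ k, Tv N y (c • η) :=
    fun {y η z ζ} t g c hc => by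
      have := t.neg_right.conj_tv (g c hc)
      convert this using 1
      · simp [t.dot]
      · simp [t.dot, smul_sub, smul_smul]
  have g1 : ∀ {y η}, Fl P k y η → ξ ⬝ᵥ y ≠ 0 → ∀ c ∈ k, Tv N y (c • η) := fun {y η} f e1 => by
    by_cases e2 : η ⬝ᵥ x = 0
    swap
    · exact opp f e1 e2
    have h3 := h.resolve_right fun n => e1 (n f fx e2)
    obtain ⟨z, ζ, fz, a1, a2, a3⟩ : ∃ z ζ, Fl P k z ζ ∧ ζ ⬝ᵥ x ≠ 0 ∧ η ⬝ᵥ z ≠ 0 ∧ ξ ⬝ᵥ z ≠ 0 := by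
      obtain ⟨z, ζ, fz, a1, a2⟩ := hF.toFam0.mid fx.1 f.2.1
      by_cases a3 : ξ ⬝ᵥ z = 0
      · exact ⟨_, _, fz.conj_tv f.tv, by simpa [e2] using a1, by simpa [f.dot] using a2,
          by simpa [a3] using ⟨a2, e1⟩⟩
      · exact ⟨z, ζ, fz, a1, a2, a3⟩
    obtain ⟨c, hc, b1, b2⟩ := cyc_avoid h3 (a := ξ ⬝ᵥ y) (b := ζ ⬝ᵥ y * ξ ⬝ᵥ z) (a' := 0)
      (b' := η ⬝ᵥ z * ζ ⬝ᵥ x) (fun e => e1 e.1) fun e => mul_ne_zero a2 a1 e.2
    refine back (opp fz a3 a1 c hc) (opp (f.conj_tv (fz.2.2 c hc)) ?_ ?_)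
    · simpa [mul_assoc] using b1
    · rw [zero_add, mul_left_comm] at b2
      simpa [e2] using b2
  refine hF.gen N fun y η f => ?_
  have : ∀ c ∈ k, Tv N y (c • η) := by
    by_cases e1 : ξ ⬝ᵥ y = 0
    swap
    · exact g1 f e1
    obtain ⟨z, ζ, fz, a1, a2⟩ := hF.toFam0.mid f.1 fx.2.1
    exact back (by simpa using g1 fz a2 1 k.one_mem) (g1 (f.conj_tv fz.tv) (by simpa [e1] using ⟨a1, a2⟩))
  simpa using this 1 k.one_mem

/-- The matrices in the additive closure of `{c • 1} ∪ {c • vecMulVec a.1 b.2 | a, b ∈ O}`, `c ∈ M`,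
form a subring `R` (`(v_a φ_b) (v_c φ_d) = φ_b(v_c) v_a φ_d`) with traces in `M`.  The units `g` with
`g, g⁻¹ ∈ R` form a subgroup `N`, which contains `1 + c v φ`. -/
theorem trace_mem {O : Set ((ι → F) × (ι → F))} {M : Subfield F}
    (h0 : ∀ a ∈ O, a.2 ⬝ᵥ a.1 = 0) (hO : ∀ a ∈ O, ∀ b ∈ O, a.2 ⬝ᵥ b.1 ∈ M)
    (hg : ∀ N : Subgroup (GL ι F), (∀ a ∈ O, ∀ c ∈ M, Tv N a.1 (c • a.2)) → P ≤ N) :
    ∀ g ∈ P, g.1.trace ∈ M := by
  let S : Set (Matrix ι ι F) :=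
    {X | ∃ c ∈ M, X = c • (1 : Matrix ι ι F) ∨ ∃ a ∈ O, ∃ b ∈ O, X = c • vecMulVec a.1 b.2}
  have hS : ∀ x ∈ S, ∀ y ∈ S, x * y ∈ S := by
    rintro _ ⟨c, hc, rfl | ⟨a, ha, b, hb, rfl⟩⟩ _ ⟨d, hd, rfl | ⟨a', ha', b', hb', rfl⟩⟩
    · exact ⟨c * d, M.mul_mem hc hd, .inl (by simp [smul_smul, mul_comm])⟩
    · exact ⟨c * d, M.mul_mem hc hd, .inr ⟨a', ha', b', hb', by simp [smul_smul, mul_comm]⟩⟩
    · exact ⟨c * d, M.mul_mem hc hd, .inr ⟨a, ha, b, hb, by simp [smul_smul, mul_comm]⟩⟩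
    · refine ⟨c * d * (b.2 ⬝ᵥ a'.1), M.mul_mem (M.mul_mem hc hd) (hO b hb a' ha'), .inr ⟨a, ha, b', hb', ?_⟩⟩
      rw [Matrix.smul_mul, Matrix.mul_smul, vecMulVec_mul_vecMulVec, vecMulVec_smul, smul_smul, smul_smul]
  have h1 : (1 : Matrix ι ι F) ∈ S := ⟨1, M.one_mem, .inl (one_smul _ _).symm⟩
  have m : ∀ a ∈ O, ∀ c ∈ M, 1 + vecMulVec a.1 (c • a.2) ∈ AddSubgroup.closure S := fun a ha c hc =>
    add_mem (AddSubgroup.subset_closure h1)
      (AddSubgroup.subset_closure ⟨c, hc, .inr ⟨a, ha, a, ha, vecMulVec_smul _ _ _⟩⟩)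
  have le := hg (cycSub hS h1 (Units.coeHom _)) fun a ha c hc => ⟨by simp [h0 a ha], m a ha c hc, by
    rw [tvGL_inv]
    have := m a ha _ (M.neg_mem hc)
    rw [neg_smul] at this
    exact this⟩
  have tr : ∀ X ∈ AddSubgroup.closure S, X.trace ∈ M := fun X hX => by
    induction hX using AddSubgroup.closure_induction with
    | mem X hX =>
      obtain ⟨c, hc, rfl | ⟨a, ha, b, hb, rfl⟩⟩ := hX
      · rw [trace_smul, trace_one]; exact M.mul_mem hc (natCast_mem M _)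
      · rw [trace_smul, trace_vecMulVec, dotProduct_comm]; exact M.mul_mem hc (hO b hb a ha)
    | zero => rw [trace_zero]; exact M.zero_mem
    | add _ _ _ _ a b => rw [trace_add]; exact M.add_mem a b
    | neg _ _ a => rw [trace_neg]; exact M.neg_mem a
  exact fun g hg => tr _ (le hg).1

/-- Let `R` be the additive closure of the pairs `(c • 1, σ c • 1)` and
`(c • vecMulVec a.1 b.2, -σ c • vecMulVec b.1 a.2)`, `a, b ∈ O`, `c ∈ F`.  `R` is closed under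
`(X, Y) (X', Y') = (X X', Y' Y)` and `trace Y = σ (trace X)` on `R`.  The `g` with `(g, g⁻¹) ∈ R` and
`(g⁻¹, g) ∈ R` form a subgroup, which contains `1 + c v φ` for `σ c = c`. -/
theorem trace_inv {O : Set ((ι → F) × (ι → F))} {σ : F →+* F}
    (h0 : ∀ a ∈ O, a.2 ⬝ᵥ a.1 = 0) (hO : ∀ a ∈ O, ∀ b ∈ O, σ (a.2 ⬝ᵥ b.1) = -(b.2 ⬝ᵥ a.1))
    (hg : ∀ N : Subgroup (GL ι F), (∀ a ∈ O, ∀ c, σ c = c → Tv N a.1 (c • a.2)) → P ≤ N) :
    ∀ g ∈ P, (g⁻¹).1.trace = σ g.1.trace := by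
  let S : Set (Matrix ι ι F × (Matrix ι ι F)ᵐᵒᵖ) :=
    {X | ∃ c : F, X = (c • (1 : Matrix ι ι F), .op (σ c • (1 : Matrix ι ι F))) ∨
      ∃ a ∈ O, ∃ b ∈ O, X = (c • vecMulVec a.1 b.2, .op (-σ c • vecMulVec b.1 a.2))}
  have hS : ∀ x ∈ S, ∀ y ∈ S, x * y ∈ S := by
    rintro _ ⟨c, rfl | ⟨a, ha, b, hb, rfl⟩⟩ _ ⟨d, rfl | ⟨a', ha', b', hb', rfl⟩⟩ <;>
      rw [Prod.mk_mul_mk, ← MulOpposite.op_mul]
    · exact ⟨c * d, .inl (by simp [smul_smul, mul_comm])⟩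
    · exact ⟨c * d, .inr ⟨a', ha', b', hb', by simp [smul_smul, mul_comm]⟩⟩
    · exact ⟨c * d, .inr ⟨a, ha, b, hb, by simp [smul_smul, mul_comm]⟩⟩
    · refine ⟨c * d * (b.2 ⬝ᵥ a'.1), .inr ⟨a, ha, b', hb', ?_⟩⟩
      simp only [Matrix.smul_mul, Matrix.mul_smul, vecMulVec_mul_vecMulVec, vecMulVec_smul, smul_smul, map_mul,
        hO b hb a' ha']
      refine Prod.ext (congrArg (· • _) (by ring)) (congrArg MulOpposite.op (congrArg (· • _) (by ring)))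
  have h1 : (1 : Matrix ι ι F × (Matrix ι ι F)ᵐᵒᵖ) ∈ S := ⟨1, .inl (by simp; rfl)⟩
  let f : GL ι F →* Matrix ι ι F × (Matrix ι ι F)ᵐᵒᵖ :=
    { toFun := fun g => (g.1, .op (g⁻¹).1)
      map_one' := by simp
      map_mul' := fun g g' => by rw [_root_.mul_inv_rev, Units.val_mul, Units.val_mul, MulOpposite.op_mul]; rfl }
  have m : ∀ a ∈ O, ∀ c, σ c = c → ∀ h, f (tvGL a.1 (c • a.2) h) ∈ AddSubgroup.closure S := fun a ha c hc h => by
    have := add_mem (AddSubgroup.subset_closure h1)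
      (AddSubgroup.subset_closure (show _ ∈ S from ⟨c, .inr ⟨a, ha, a, ha, rfl⟩⟩))
    convert this using 1
    change ((tvGL a.1 (c • a.2) h).1, MulOpposite.op ((tvGL a.1 (c • a.2) h)⁻¹).1) = _
    rw [tvGL_inv, tvGL_coe, tvGL_coe, ← neg_smul, vecMulVec_smul, vecMulVec_smul, hc, MulOpposite.op_add]
    rfl
  have le := hg (cycSub hS h1 f) fun a ha c hc => ⟨by simp [h0 a ha], m a ha c hc _, by
    rw [tvGL_inv]
    simpa only [neg_smul] using m a ha (-c) (by rw [map_neg, hc]) (by simp [h0 a ha])⟩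
  have tr : ∀ X ∈ AddSubgroup.closure S, X.2.unop.trace = σ X.1.trace := fun X hX => by
    induction hX using AddSubgroup.closure_induction with
    | mem X hX =>
      obtain ⟨c, rfl | ⟨a, ha, b, hb, rfl⟩⟩ := hX
      · simp
      · simp only [MulOpposite.unop_op, trace_smul, trace_vecMulVec, smul_eq_mul, map_mul]
        rw [dotProduct_comm a.1, hO b hb a ha, dotProduct_comm b.1]
        ring
    | zero => simp
    | add _ _ _ _ a b => simp [a, b]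
    | neg _ _ a => simp [a]
  exact fun g hg => tr _ (le hg).1

end Cfsg.Lib.TVn
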