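import Cfsg.Agent.Lib.TVn.Cyc

/-!
# Transvection groups: degenerate triangles
-/

set_option autoImplicit false

namespace Cfsg.Lib.TVn

open scoped MatrixGroups Matrix commutatorElement
open Cfsg.Geo Cfsg.Lib.Asch Cfsg.Lib.Linear Module Matrix

variable {ι : Type} [Fintype ι] [DecidableEq ι] {F : Type*} [Field F] {P : Subgroup (GL ι F)}
  {k : Subfield F}

/-- **Lemma S.**  Let `a = (x, ξ)`, `b = (y, η)` be opposite, `ω(u, w) = ξ(u) η(w) - η(u) ξ(w)`,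
`e u = (η u / η x) x + (ξ u / ξ y) y`; the hypothesis says `φ (e v) = 0` for all flags `s = (v, φ)`.
Applying it to the conjugate of `s` under `1 + w χ` gives `χ(v) φ(e w) = φ(w) χ(e v)` for all flags
`s`, `t = (w, χ)`.  If `e v ≠ 0` then `φ ∘ e ≠ 0` (else `φ(w) χ(e v) = 0` for all `t`, against `mid`), so
`φ ∘ e = κ_s ω(v, ·)` with `κ_s ≠ 0`; put `θ_s = κ_s⁻¹ φ`.  For `s, t` with `e v, e w ≠ 0`:
`θ_t v = -θ_s w`.  If `ω(v, w) ≠ 0` this is the identity above.  Otherwise conjugate `s` by `1 + x ξ` or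
`1 + y η` to `s'` with `ω(v', w) ≠ 0`; `κ_{s'} = κ_s`, and `θ_s(w) - ω(v, w)`, `θ_t(v) - ω(w, v)` are
unchanged.  These flags generate `P`: if `e v = 0`, take `t` with `χ v ≠ 0`, `ξ w ≠ 0` (`mid`) and
conjugate `s` by `1 + w χ`.  Apply `trace_inv` with `σ = id`. -/
theorem Fam0.re_of_pair (h : Fam0 P k) {x ξ y η : ι → F} (fx : Fl P k x ξ) (fy : Fl P k y η)
    (e1 : ξ ⬝ᵥ y ≠ 0) (e2 : η ⬝ᵥ x ≠ 0)
    (hd : ∀ v φ, Fl P k v φ →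
      (ξ ⬝ᵥ y) * (η ⬝ᵥ v) * (φ ⬝ᵥ x) + (ξ ⬝ᵥ v) * (φ ⬝ᵥ y) * (η ⬝ᵥ x) = 0) : Re P := by
  let G : (ι → F) → (ι → F) → Prop := fun v θ => (∃ κ : F, κ ≠ 0 ∧ Fl P k v (κ • θ)) ∧
    θ ⬝ᵥ x = (η ⬝ᵥ x) * (ξ ⬝ᵥ v) ∧ θ ⬝ᵥ y = -((ξ ⬝ᵥ y) * (η ⬝ᵥ v))
  have k1 : ∀ {v θ w χ}, G v θ → G w χ →
      (ξ ⬝ᵥ v) * (η ⬝ᵥ w) - (η ⬝ᵥ v) * (ξ ⬝ᵥ w) ≠ 0 → θ ⬝ᵥ w = -(χ ⬝ᵥ v) := by
    rintro v θ w χ ⟨⟨κ, κ0, f⟩, a1, a2⟩ ⟨⟨μ, μ0, g⟩, b1, b2⟩ n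
    have := hd _ _ (f.conj_tv g.tv)
    simp only [dotProduct_add, sub_dotProduct, dotProduct_smul, smul_dotProduct, smul_eq_mul, a1, a2,
      b1, b2] at this
    refine mul_left_cancel₀ (mul_ne_zero (mul_ne_zero (mul_ne_zero κ0 μ0) (mul_ne_zero e1 e2)) n) ?_
    linear_combination this
  have cj : ∀ {v θ u ψ : ι → F}, (∃ κ : F, κ ≠ 0 ∧ Fl P k v (κ • θ)) → Fl P k u ψ →
      ∃ κ : F, κ ≠ 0 ∧ Fl P k (v + (ψ ⬝ᵥ v) • u) (κ • (θ - (θ ⬝ᵥ u) • ψ)) := by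
    rintro v θ u ψ ⟨κ, κ0, f⟩ g
    refine ⟨κ, κ0, ?_⟩
    have := f.conj_tv g.tv
    rwa [smul_dotProduct, smul_assoc, ← smul_sub] at this
  have k2 : ∀ {v θ w χ}, G v θ → G w χ → ¬ (ξ ⬝ᵥ v = 0 ∧ η ⬝ᵥ v = 0) →
      ¬ (ξ ⬝ᵥ w = 0 ∧ η ⬝ᵥ w = 0) → θ ⬝ᵥ w = -(χ ⬝ᵥ v) := fun {v θ w χ} a b n1 n2 => by
    by_cases e : (ξ ⬝ᵥ v) * (η ⬝ᵥ w) - (η ⬝ᵥ v) * (ξ ⬝ᵥ w) = 0
    swap
    · exact k1 a b e
    by_cases p : ξ ⬝ᵥ v = 0
    · have q : η ⬝ᵥ v ≠ 0 := fun q => n1 ⟨p, q⟩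
      have p' : ξ ⬝ᵥ w = 0 := by simpa [p, q] using e
      have q' : η ⬝ᵥ w ≠ 0 := fun q => n2 ⟨p', q⟩
      have := k1 (v := v + (η ⬝ᵥ v) • y) (θ := θ - (θ ⬝ᵥ y) • η) ⟨cj a.1 fy,
        by simp only [dotProduct_add, sub_dotProduct, dotProduct_smul, smul_dotProduct, smul_eq_mul,
          a.2.1, a.2.2]; ring, by simp [fy.dot, a.2.2]⟩ b (by simp [p, p', q, q', e1])
      simp only [dotProduct_add, sub_dotProduct, dotProduct_smul, smul_dotProduct, smul_eq_mul,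
        a.2.2, b.2.2] at this
      linear_combination this
    · have p' : ξ ⬝ᵥ w ≠ 0 := fun p' => n2 ⟨p', by simpa [p, p'] using e⟩
      have := k1 (v := v + (ξ ⬝ᵥ v) • x) (θ := θ - (θ ⬝ᵥ x) • ξ) ⟨cj a.1 fx,
        by simp [fx.dot, a.2.1], by
          simp only [dotProduct_add, sub_dotProduct, dotProduct_smul, smul_dotProduct, smul_eq_mul,
            a.2.1, a.2.2]; ring⟩ b (fun e' => mul_ne_zero (mul_ne_zero p p') e2 (by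
          simp only [dotProduct_add, dotProduct_smul, smul_eq_mul, fx.dot] at e'
          linear_combination e - e'))
      simp only [dotProduct_add, sub_dotProduct, dotProduct_smul, smul_dotProduct, smul_eq_mul,
        a.2.1, b.2.1] at this
      linear_combination this
  have k3 : ∀ {v φ}, Fl P k v φ → ¬ (ξ ⬝ᵥ v = 0 ∧ η ⬝ᵥ v = 0) → ∃ κ : F, κ ≠ 0 ∧ G v (κ⁻¹ • φ) :=
    fun {v φ} f n => by
    have d := hd v φ f
    obtain ⟨κ, c1, c2⟩ : ∃ κ : F, φ ⬝ᵥ x = κ * ((η ⬝ᵥ x) * (ξ ⬝ᵥ v)) ∧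
        φ ⬝ᵥ y = κ * -((ξ ⬝ᵥ y) * (η ⬝ᵥ v)) := by
      by_cases p : ξ ⬝ᵥ v = 0
      · have q : η ⬝ᵥ v ≠ 0 := fun q => n ⟨p, q⟩
        refine ⟨-(φ ⬝ᵥ y) / ((ξ ⬝ᵥ y) * (η ⬝ᵥ v)), by simpa [p, q, e1] using d, ?_⟩
        field_simp
      · refine ⟨(φ ⬝ᵥ x) / ((η ⬝ᵥ x) * (ξ ⬝ᵥ v)), by field_simp, ?_⟩
        field_simp
        linear_combination d
    have κ0 : κ ≠ 0 := by
      rintro rfl
      rw [zero_mul] at c1 c2
      obtain ⟨w, χ, g, t1, t2⟩ := h.mid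
        (v := ((ξ ⬝ᵥ y) * (η ⬝ᵥ v)) • x + ((η ⬝ᵥ x) * (ξ ⬝ᵥ v)) • y) (fun e => n
          ⟨by simpa [fx.dot, e1, e2] using congrArg (ξ ⬝ᵥ ·) e,
            by simpa [fy.dot, e1, e2] using congrArg (η ⬝ᵥ ·) e⟩) f.2.1
      have := hd _ _ (f.conj_tv g.tv)
      have d' := hd w χ g
      simp only [dotProduct_add, sub_dotProduct, dotProduct_smul, smul_dotProduct, smul_eq_mul, c1,
        c2] at this t1
      exact mul_ne_zero t2 t1 (by linear_combination (-1 : F) * this - (φ ⬝ᵥ w) * (χ ⬝ᵥ v) * d')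
    exact ⟨κ, κ0, ⟨κ, κ0, by rwa [smul_inv_smul₀ κ0]⟩, by simp [c1, κ0], by simp [c2, κ0]⟩
  refine trace_inv (σ := RingHom.id F) (O := {a | G a.1 a.2 ∧ ¬ (ξ ⬝ᵥ a.1 = 0 ∧ η ⬝ᵥ a.1 = 0)})
    (fun a ⟨⟨⟨κ, κ0, f⟩, _⟩, _⟩ => by simpa [κ0] using f.dot)
    (fun a ha b hb => k2 ha.1 hb.1 ha.2 hb.2) fun N hN => h.gen N fun v φ f => ?_
  have good : ∀ {v φ}, Fl P k v φ → ¬ (ξ ⬝ᵥ v = 0 ∧ η ⬝ᵥ v = 0) → Tv N v φ := fun {v φ} f n => by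
    obtain ⟨κ, κ0, g⟩ := k3 f n
    simpa [smul_inv_smul₀ κ0] using hN (v, κ⁻¹ • φ) ⟨g, n⟩ κ rfl
  by_cases n : ξ ⬝ᵥ v = 0 ∧ η ⬝ᵥ v = 0
  swap
  · exact good f n
  obtain ⟨w, χ, g, t1, t2⟩ := h.mid f.1 fx.2.1
  have := (good g fun e => t2 e.1).neg_right.conj_tv
    (good (f.conj_tv g.tv) fun e => by simpa [n.1, t1, t2] using e.1)
  convert this using 1
  · simp [g.dot]
  · simp [g.dot]

theorem sym_five {i x : F} (hi : i * i = -1) (h : x ^ 5 = x) :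
    x = 0 ∨ x = 1 ∨ x = -1 ∨ x = i ∨ x = -i := by
  have : x * ((x - 1) * ((x + 1) * ((x - i) * (x + i)))) = 0 := by
    linear_combination h - x * (x ^ 2 - 1) * hi
  simpa only [mul_eq_zero, sub_eq_zero, add_eq_zero_iff_eq_neg] using this

theorem sym_dec : ∀ a ∈ ([0, 1, -1, ⟨0, 1⟩, -⟨0, 1⟩] : List GaussianInt),
    ∀ b ∈ ([0, 1, -1, ⟨0, 1⟩, -⟨0, 1⟩] : List GaussianInt),
    ∀ c ∈ ([0, 1, -1, ⟨0, 1⟩, -⟨0, 1⟩] : List GaussianInt),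
    (∀ z ∈ ([a * ⟨0, 1⟩ * 2 + ⟨0, 1⟩ * (b - c) * (⟨0, 1⟩ - 1) - (a + b + c),
        a * ⟨0, 1⟩ + ⟨0, 1⟩ * (b - c) * (⟨0, 1⟩ + 1) - (a + b + c),
        ⟨0, 1⟩ * (a + ⟨0, 1⟩ * (b - c) + (a + b + c))] : List GaussianInt),
      (3 : ℤ) ∣ (z * z * z * z * z - z).norm) →
    (3 : ℤ) ∣ (-((b - c) * (b - c)) - a * (a + b + c)).re ∧
      (3 : ℤ) ∣ (-((b - c) * (b - c)) - a * (a + b + c)).im := by decide +kernel

/-- A binary quadratic form over `𝔽₉` taking only square values is degenerate.  The six points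
`(1, 0), (1, i), (1, -i), (1 + i, i), (1 - i, i), (1 - i, 1 - i)` of `S` (words `b, bb, ba, baa, baab`)
suffice (checked by computer).  `x⁵ = x` means `x ∈ {0, ±1, ±i}`; the first three values `α`,
`α + β i - γ`, `α - β i - γ` determine `β, γ ∈ 𝔽₉`: `125` cases (map `𝔽₉ = ZMod 3 × ZMod 3` injectively
into `F` and `decide`, or clear each case by `linear_combination`). -/
theorem nine_aux (h3 : (3 : F) = 0) {i α β γ : F} (hi : i * i = -1) {S : Set (F × F)}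
    (h0 : (1, 0) ∈ S) (h1 : ∀ a ∈ S, (a.1 + a.2, a.2) ∈ S) (h2 : ∀ a ∈ S, (a.1, a.2 + i * a.1) ∈ S)
    (h : ∀ a ∈ S, (α * a.1 ^ 2 + β * a.1 * a.2 + γ * a.2 ^ 2) ^ 5 =
      α * a.1 ^ 2 + β * a.1 * a.2 + γ * a.2 ^ 2) : β ^ 2 - 4 * α * γ = 0 := by
  haveI : CharP F 3 := (CharP.charP_iff_prime_eq_zero Nat.prime_three).2 (by exact_mod_cast h3)
  let f : GaussianInt →+* F := Zsqrtd.lift ⟨i, by simpa using hi⟩
  have fa : ∀ z : GaussianInt, f z = z.re + z.im * i := fun z => rfl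
  have fi : f ⟨0, 1⟩ = i := by simp [fa]
  have ex : ∀ {x : F}, x ^ 5 = x →
      ∃ a ∈ ([0, 1, -1, ⟨0, 1⟩, -⟨0, 1⟩] : List GaussianInt), f a = x := fun hx => by
    rcases sym_five hi hx with e | e | e | e | e <;> rw [e]
    exacts [⟨0, by simp, by simp⟩, ⟨1, by simp, by simp⟩, ⟨-1, by simp, by simp⟩,
      ⟨_, by simp, fi⟩, ⟨-⟨0, 1⟩, by simp, by rw [map_neg, fi]⟩]
  have ker : ∀ z : GaussianInt, f z ^ 5 = f z → (3 : ℤ) ∣ (z * z * z * z * z - z).norm := fun z hz => by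
    refine (CharP.intCast_eq_zero_iff F 3 _).1 ?_
    rw [← map_intCast f, Zsqrtd.norm_eq_mul_conj, map_mul, map_sub]
    simp only [map_mul]
    linear_combination f (star (z * z * z * z * z - z)) * hz
  have p2 := h2 _ h0
  have p3 := h2 _ p2
  have p4 := h1 _ p2
  have p5 := h1 _ p4
  have p6 := h2 _ p5
  obtain ⟨a, ha, ea⟩ := ex (h _ h0)
  obtain ⟨b, hb, eb⟩ := ex (h _ p2)
  obtain ⟨c, hc, ec⟩ := ex (h _ p3)
  have q4 := h _ p4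
  have q5 := h _ p5
  have q6 := h _ p6
  dsimp only at ea eb ec q4 q5 q6
  obtain ⟨⟨r, hr⟩, s, hs⟩ := sym_dec a ha b hb c hc (fun z hz => ker z (by
    simp only [List.mem_cons, List.not_mem_nil, or_false] at hz
    rcases hz with rfl | rfl | rfl <;>
      simp only [map_add, map_sub, map_mul, map_one, map_ofNat, fi, ea, eb, ec]
    · convert q4 using 2 <;> grind
    · convert q5 using 2 <;> grind
    · convert q6 using 2 <;> grind))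
  have := fa (-((b - c) * (b - c)) - a * (a + b + c))
  rw [hr, hs] at this
  simp only [map_add, map_sub, map_mul, map_neg, ea, eb, ec] at this
  push_cast at this
  grind

/-- **`p = 3`, root groups of order three.**  If all `τ` satisfy `τ³ = τ` they lie in `⊥`.  Otherwise
some pair `(x, ξ)`, `(y, η)` has `τ = i`, `i² = -1`; rescale `ξ y = 1`, `η x = i`.  The set `S` of `(r, s)`
with `Tv P (r x + s y) (r ξ - s i⁻¹ η)` satisfies the closure properties of `nine_aux` (conjugation by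
`1 + x ξ`, `1 + y η`).  For a flag `(v, φ)` the `2`-cycle with that transvection is
`(r φ(x) + s φ(y)) (r ξ(v) - s i⁻¹ η(v))`, whose discriminant is `(φ(y) ξ(v) + i⁻¹ φ(x) η(v))²`.  So
`re_of_pair` applies. -/
theorem Fam0.three [Finite F] (h3 : (3 : F) = 0) (h : Fam0 P ⊥)
    (h5 : ∀ {v φ u ψ : ι → F}, Tv P v φ → Tv P u ψ →
      ((φ ⬝ᵥ u) * (ψ ⬝ᵥ v)) ^ 5 = (φ ⬝ᵥ u) * (ψ ⬝ᵥ v)) : Fam P ⊥ ∨ Re P := by
  by_cases hb : ∀ {v φ u ψ : ι → F}, Fl P ⊥ v φ → Fl P ⊥ u ψ → (φ ⬝ᵥ u) * (ψ ⬝ᵥ v) ∈ (⊥ : Subfield F)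
  · exact Or.inl ⟨h, hb⟩
  right
  push Not at hb
  obtain ⟨x, ξ, y₀, η₀, fx, f0, n⟩ := hb
  have e0 : ξ ⬝ᵥ y₀ ≠ 0 := fun e => n (by rw [e, zero_mul]; exact zero_mem _)
  have fy := f0.rescale (inv_ne_zero e0)
  have e1 : ξ ⬝ᵥ ((ξ ⬝ᵥ y₀)⁻¹ • y₀) = 1 := by simp [e0]
  have e2 : ((ξ ⬝ᵥ y₀)⁻¹⁻¹ • η₀) ⬝ᵥ x = (ξ ⬝ᵥ y₀) * (η₀ ⬝ᵥ x) := by simp
  have t := h5 fx.tv f0.tv
  generalize (ξ ⬝ᵥ y₀)⁻¹ • y₀ = y at fy e1
  generalize (ξ ⬝ᵥ y₀)⁻¹⁻¹ • η₀ = η at fy e2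
  generalize (ξ ⬝ᵥ y₀) * (η₀ ⬝ᵥ x) = i at n e2 t
  have i0 : i ≠ 0 := fun e => n (e ▸ zero_mem _)
  have hi : i * i = -1 := by
    have i1 : i - 1 ≠ 0 := sub_ne_zero.2 fun e => n (e ▸ one_mem _)
    have i2 : i + 1 ≠ 0 := fun e => n (eq_neg_of_add_eq_zero_left e ▸ neg_mem (one_mem _))
    refine mul_left_cancel₀ (mul_ne_zero i0 (mul_ne_zero i1 i2)) ?_
    linear_combination t
  refine h.re_of_pair fx fy (e1 ▸ one_ne_zero) (e2 ▸ i0) fun v φ f => ?_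
  have := nine_aux h3 hi (α := (φ ⬝ᵥ x) * (ξ ⬝ᵥ v))
    (β := i * (φ ⬝ᵥ x) * (η ⬝ᵥ v) + (φ ⬝ᵥ y) * (ξ ⬝ᵥ v)) (γ := i * (φ ⬝ᵥ y) * (η ⬝ᵥ v))
    (S := {a | Tv P (a.1 • x + a.2 • y) (a.1 • ξ + (a.2 * i) • η)}) (by simpa using fx.tv)
    (fun a ha => by
      have := fx.tv.conj_tv ha
      simp only [dotProduct_add, add_dotProduct, dotProduct_smul, smul_dotProduct, smul_eq_mul, fx.dot,
        e1, e2, mul_assoc, hi] at this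
      show Tv P _ _
      convert this using 1 <;> module)
    (fun a ha => by
      have := fy.tv.conj_tv ha
      simp only [dotProduct_add, add_dotProduct, dotProduct_smul, smul_dotProduct, smul_eq_mul, fy.dot,
        e1, e2] at this
      show Tv P _ _
      convert this using 1
      · module
      · rw [show (a.2 + i * a.1) * i = a.2 * i - a.1 by linear_combination a.1 * hi]; module)
    (fun a ha => by
      have := h5 f.tv ha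
      simp only [dotProduct_add, add_dotProduct, dotProduct_smul, smul_dotProduct, smul_eq_mul] at this
      convert this using 2 <;> ring)
  have t2 : i * (φ ⬝ᵥ x) * (η ⬝ᵥ v) - (φ ⬝ᵥ y) * (ξ ⬝ᵥ v) = 0 :=
    pow_eq_zero_iff two_ne_zero |>.1 (by linear_combination this)
  rw [e1, e2]
  linear_combination (-i) * t2 + (φ ⬝ᵥ x) * (η ⬝ᵥ v) * hi

end Cfsg.Lib.TVn
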