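import Cfsg.Agent.Lib.TVn.Star
import Cfsg.Agent.Lib.TVn.Sym
import Cfsg.Agent.Lib.Q4R.Def

/-!
# Odd transpositions: monomial frames
-/

set_option autoImplicit false

namespace Cfsg.Lib.TVn

open scoped MatrixGroups Matrix commutatorElement
open Cfsg.Geo Cfsg.Lib.Asch Cfsg.Lib.Linear Module Matrix

variable {ι : Type} [Fintype ι] [DecidableEq ι] {F : Type*} [Field F] {P : Subgroup (GL ι F)}
  {k : Subfield F}

variable {K : Type*} [Field K] {G : Subgroup (GL ι K)} {l : K} {r : ℕ} {e ε : Fin r → ι → K}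

theorem mon_scale {v φ : ι → K} (h : Tv G v φ) {c : K} (hc : c ≠ 0) : Tv G (c • v) (c⁻¹ • φ) :=
  Tv.smul_swap' (by rwa [smul_inv_smul₀ hc]) (by simp [h.dot])

theorem mon_symm {a b α β : ι → K} {c : K} (hc : c ≠ 0) (h : Tv G (a + c⁻¹ • b) (α + c⁻¹⁻¹ • β)) :
    Tv G (b + c • a) (β + c⁻¹ • α) := by
  convert mon_scale h hc using 1 <;> simp [smul_smul, hc, add_comm]

theorem mon_sw (h2 : (2 : K) = 0) {g : GL ι K} {v φ : ι → K} (e : g.1 = 1 + vecMulVec v φ) {i j : ι}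
    (hij : i ≠ j) (hi : v i * φ i = 1) (hj : v j * φ j = 1) (h0 : ∀ m, m ≠ i → m ≠ j → v m = 0 ∧ φ m = 0) :
    ∃ a, g = Q4R.sw i j a := by
  have n : v i * φ j ≠ 0 := mul_ne_zero (left_ne_zero_of_mul_eq_one hi) (right_ne_zero_of_mul_eq_one hj)
  have n' : v j * φ i = (v i * φ j)⁻¹ := eq_inv_of_mul_eq_one_left (by linear_combination v j * φ j * hi + hj)
  refine ⟨Units.mk0 _ n, Units.ext (Matrix.ext fun a b => ?_)⟩
  rw [e, Q4R.sw, Q4R.mon_apply, Matrix.add_apply, vecMulVec_apply, one_apply]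
  by_cases b1 : b = i
  · subst b1
    by_cases a1 : a = b
    · simpa [a1, hij, hi, one_add_one_eq_two] using h2
    by_cases a2 : a = j
    · simp [a2, hij.symm, n']
    · simp [a1, a2, (h0 a a1 a2).1]
  by_cases b2 : b = j
  · subst b2
    by_cases a1 : a = b
    · simpa [a1, hij.symm, hj, one_add_one_eq_two] using h2
    by_cases a2 : a = i
    · simp [a2, hij]
    · simp [a1, a2, (h0 a a2 a1).1]
  rw [(h0 b b1 b2).2, Equiv.swap_apply_of_ne_of_ne b1 b2]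
  split_ifs with a1
  · simp [a1, b1, b2]
  · simp

/-- `e` is a basis with dual basis `ε`; let `B` have the columns `e` (indexed through `ι ≃ Fin r`).
In this basis every transvection of `G` is `Q4R.sw i j a`.  So `G` is monomial (`hg`), and the subgroup
of the `g` with `B⁻¹ g B ∈ NN` of even permutation part contains `⁅G, G⁆ = G`, but no transvection. -/
theorem mono_false (h2 : (2 : K) = 0) (hp : ⁅G, G⁆ = G)
    (hg : ∀ N : Subgroup (GL ι K), (∀ v φ, v ≠ 0 → φ ≠ 0 → Tv G v φ → Tv N v φ) → G ≤ N)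
    (hr : r = Fintype.card ι) (hd : ∀ i j, ε i ⬝ᵥ e j = if i = j then 1 else 0)
    (hex : ∃ v φ, v ≠ 0 ∧ φ ≠ 0 ∧ Tv G v φ)
    (h : ∀ v φ, v ≠ 0 → φ ≠ 0 → Tv G v φ → ∃ i j, i ≠ j ∧ (ε i ⬝ᵥ v) * (φ ⬝ᵥ e i) = 1 ∧
      ∀ m, m ≠ i → m ≠ j → ε m ⬝ᵥ v = 0 ∧ φ ⬝ᵥ e m = 0) : False := by
  let q : ι ≃ Fin r := Fintype.equivFinOfCardEq hr.symm
  let B : Matrix ι ι K := of fun a b => e (q b) a
  let C : Matrix ι ι K := of fun a b => ε (q a) b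
  have CB : C * B = 1 := Matrix.ext fun a b => by
    rw [one_apply]
    exact (hd (q a) (q b)).trans (by simp)
  let β : GL ι K := ⟨C, B, CB, mul_eq_one_comm.1 CB⟩
  have key : ∀ v φ, v ≠ 0 → φ ≠ 0 → ∀ t : Tv G v φ, ∃ i j a, i ≠ j ∧
      MulAut.conj β (tvGL v φ t.1) = Q4R.sw i j a := fun v φ hv hφ t => by
    obtain ⟨i, j, hij, h1, h0⟩ := h v φ hv hφ t
    obtain ⟨i, rfl⟩ := q.surjective i
    obtain ⟨j, rfl⟩ := q.surjective j
    replace hij : i ≠ j := fun e => hij (congrArg q e)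
    have h0' : ∀ m, m ≠ i → m ≠ j → (C *ᵥ v) m = 0 ∧ (φ ᵥ* B) m = 0 := fun m a b =>
      h0 (q m) (q.injective.ne a) (q.injective.ne b)
    have h1' : (C *ᵥ v) i * (φ ᵥ* B) i = 1 := h1
    have d : (φ ᵥ* B) ⬝ᵥ (C *ᵥ v) = 0 := (emb_dot (mul_eq_one_comm.1 CB) φ v).trans t.dot
    rw [dotProduct, Finset.sum_eq_add i j hij (fun m _ a => by rw [(h0' m a.1 a.2).1, mul_zero])
      (by simp) (by simp)] at d
    obtain ⟨a, ha⟩ := mon_sw h2 (g := MulAut.conj β (tvGL v φ t.1)) (v := C *ᵥ v) (φ := φ ᵥ* B) (by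
      change C * (1 + vecMulVec v φ) * B = _
      rw [mul_add, add_mul, mul_one, CB, mul_vecMulVec, vecMulVec_mul]) hij h1'
      (by linear_combination d - h1' - h2) h0'
    exact ⟨i, j, a, hij, ha⟩
  have mon : G ≤ (Q4R.NN ι K).comap (MulAut.conj β).toMonoidHom := hg _ fun v φ hv hφ t => ⟨t.1, by
    obtain ⟨i, j, a, -, e⟩ := key v φ hv hφ t
    exact Subgroup.mem_comap.2 (e.symm ▸ Q4R.sw_mem i j a)⟩
  let s : G →* ℤˣ := MonoidHom.mk' (fun g => Equiv.Perm.sign (Q4R.pp (MulAut.conj β g.1))) fun a b => by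
    rw [Subgroup.coe_mul, map_mul, ← map_mul Equiv.Perm.sign]
    exact congrArg _ (Q4R.pp_mul (mon a.2) (mon b.2))
  have le : ⁅G, G⁆ ≤ s.ker.map G.subtype := Subgroup.commutator_le.2 fun a ha b hb =>
    ⟨⁅(⟨a, ha⟩ : G), ⟨b, hb⟩⁆, by
      rw [SetLike.mem_coe, MonoidHom.mem_ker, map_commutatorElement, commutatorElement_eq_one_iff_mul_comm,
        mul_comm], rfl⟩
  obtain ⟨v, φ, hv, hφ, t⟩ := hex
  obtain ⟨g, h1, e1⟩ := le (hp.ge t.2)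
  obtain ⟨i, j, a, hij, e⟩ := key v φ hv hφ t
  have : Equiv.Perm.sign (Q4R.pp (MulAut.conj β (G.subtype g))) = 1 := h1
  rw [e1, e, Q4R.pp_sw, Equiv.Perm.sign_swap hij] at this
  exact absurd this (by decide)

/-- A monomial frame. -/
structure Fr (G : Subgroup (GL ι K)) (l : K) {r : ℕ} (e ε : Fin r → ι → K) : Prop where
  two : (2 : K) = 0
  ne : l ≠ 0
  cube : l ^ 3 ≠ 1
  dual : ∀ i j, ε i ⬝ᵥ e j = if i = j then 1 else 0
  tv : ∀ i j, i ≠ j → ∀ n : ℤ, Tv G (e i + l ^ n • e j) (ε i + (l ^ n)⁻¹ • ε j)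

theorem mon_refl (h2 : (2 : K) = 0) {a b α β : ι → K} (aa : α ⬝ᵥ a = 1) (ab : α ⬝ᵥ b = 0) (ba : β ⬝ᵥ a = 0)
    (bb : β ⬝ᵥ b = 1) {c d : K} (hc : c ≠ 0) (hd : d ≠ 0) (h : Tv G (a + c • b) (α + c⁻¹ • β))
    (h' : Tv G (a + d • b) (α + d⁻¹ • β)) : Tv G (a + (d * d / c) • b) (α + (d * d / c)⁻¹ • β) := by
  convert mon_scale (h'.conj_tv h) (div_ne_zero hd hc) using 1 <;>
    simp only [add_dotProduct, dotProduct_add, smul_dotProduct, dotProduct_smul, aa, ab, ba, bb, smul_eq_mul] <;>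
    match_scalars <;> field_simp
  · linear_combination -d * h2
  · linear_combination -c * h2
  · linear_combination d * h2
  · linear_combination c * h2

/-- Rescale to `ξ y = 1`, `η x = τ`; `l² + τ l + 1 = 0`, `y' = (1 + l) y`, `η' = (1 + l)⁻¹ η`,
`e₁ = (1 + l)⁻¹ (x + y')`, `e₀ = x + e₁`, `ε₁ = (1 + l⁻¹)⁻¹ (ξ + η')`, `ε₀ = ξ + ε₁`.  Conjugating the
`n`-th transvection by the `m`-th gives the `(2 m - n)`-th. -/
theorem fr_two [IsAlgClosed K] (h2 : (2 : K) = 0) {x ξ y η : ι → K} (h1 : Tv G x ξ)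
    (h1' : Tv G y η) (e0 : (ξ ⬝ᵥ y) * (η ⬝ᵥ x) ≠ 0) (e1 : (ξ ⬝ᵥ y) * (η ⬝ᵥ x) ≠ 1) :
    ∃ (l : K) (e ε : Fin 2 → ι → K), Fr G l e ε ∧ ∀ v φ : ι → K,
      (ξ ⬝ᵥ y) * (η ⬝ᵥ x) * ((ε 0 ⬝ᵥ v) * (φ ⬝ᵥ e 0) + (ε 1 ⬝ᵥ v) * (φ ⬝ᵥ e 1)) =
        (ξ ⬝ᵥ y) * (η ⬝ᵥ v) * (φ ⬝ᵥ x) + (ξ ⬝ᵥ v) * (φ ⬝ᵥ y) * (η ⬝ᵥ x) := by
  obtain ⟨l, hl⟩ : ∃ l : K, l ^ 2 + (ξ ⬝ᵥ y) * (η ⬝ᵥ x) * l + 1 = 0 := by
    obtain ⟨l, hl⟩ := IsAlgClosed.exists_root (Polynomial.C 1 * Polynomial.X ^ 2 +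
      Polynomial.C ((ξ ⬝ᵥ y) * (η ⬝ᵥ x)) * Polynomial.X + Polynomial.C 1 : Polynomial K) (by
        rw [Polynomial.degree_quadratic one_ne_zero]; decide)
    exact ⟨l, by simpa using hl⟩
  have l0 : l ≠ 0 := fun e => by simp [e] at hl
  have l1 : 1 + l ≠ 0 := fun e => mul_ne_zero e0 l0 (by linear_combination hl - (1 + l) * e + l * h2)
  have l3 : l ^ 3 ≠ 1 := fun e => mul_ne_zero (mul_ne_zero (sub_ne_zero.2 e1) l0) l1 (by
    linear_combination (1 + l) * hl - e - (1 + l + l ^ 2) * h2)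
  have a0 := left_ne_zero_of_mul e0
  obtain ⟨a, ha⟩ : ∃ a, ξ ⬝ᵥ y = a := ⟨_, rfl⟩
  have hb : η ⬝ᵥ x = (1 + l) ^ 2 / (a * l) := by
    rw [ha] at a0 hl
    field_simp
    linear_combination hl - (1 + l + l ^ 2) * h2
  rw [ha] at a0
  obtain ⟨b, eb⟩ : ∃ b, b = (1 + l)⁻¹ • x + a⁻¹ • y := ⟨_, rfl⟩
  obtain ⟨β, eβ⟩ : ∃ β, β = (l / (1 + l)) • ξ + (l * a / (1 + l) ^ 2) • η := ⟨_, rfl⟩
  have ξb : ξ ⬝ᵥ b = 1 := by simp [eb, h1.dot, ha, a0]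
  have βx : β ⬝ᵥ x = 1 := by simp [eβ, h1.dot, hb]; field_simp
  have bb : β ⬝ᵥ b = 1 := by
    simp only [eb, eβ, add_dotProduct, dotProduct_add, smul_dotProduct, dotProduct_smul, h1.dot, h1'.dot, ha,
      hb, smul_eq_mul]
    field_simp
    ring
  have aa : (ξ + β) ⬝ᵥ (x + b) = 1 := by simp [h1.dot, ξb, βx, bb, one_add_one_eq_two, h2]
  have ab : (ξ + β) ⬝ᵥ b = 0 := by simp [ξb, bb, one_add_one_eq_two, h2]
  have ba : β ⬝ᵥ (x + b) = 0 := by simp [βx, bb, one_add_one_eq_two, h2]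
  have t0 : Tv G (x + b + l ^ (0 : ℤ) • b) (ξ + β + (l ^ (0 : ℤ))⁻¹ • β) := by
    convert h1 using 1
    · linear_combination (norm := (simp; module)) h2 • b
    · linear_combination (norm := (simp; module)) h2 • β
  have t1 : Tv G (x + b + l ^ (1 : ℤ) • b) (ξ + β + (l ^ (1 : ℤ))⁻¹ • β) := by
    convert mon_scale h1' (div_ne_zero l1 a0) using 1
    · rw [eb]; match_scalars <;> field_simp
      linear_combination (1 + l) * h2
    · rw [eβ]; match_scalars <;> field_simp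
      · linear_combination (1 + l) * h2
      · ring
  have t : ∀ n : ℤ, Tv G (x + b + l ^ n • b) (ξ + β + (l ^ n)⁻¹ • β) ∧
      Tv G (x + b + l ^ (n + 1) • b) (ξ + β + (l ^ (n + 1))⁻¹ • β) := fun n => by
    have z : ∀ n : ℤ, l ^ n ≠ 0 := fun n => zpow_ne_zero n l0
    induction n using Int.induction_on with
    | zero => exact ⟨t0, t1⟩
    | succ n ih =>
      refine ⟨ih.2, ?_⟩
      convert mon_refl h2 aa ab ba bb (z _) (z _) ih.1 ih.2 using 4 <;>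
        rw [← zpow_add₀ l0, ← zpow_sub₀ l0] <;> congr 1 <;> ring
    | pred n ih =>
      refine ⟨?_, by simpa using ih.1⟩
      convert mon_refl h2 aa ab ba bb (z _) (z _) ih.2 ih.1 using 4 <;>
        rw [← zpow_add₀ l0, ← zpow_sub₀ l0] <;> congr 1 <;> ring
  refine ⟨l, ![x + b, b], ![ξ + β, β], ⟨h2, l0, l3, fun i j => ?_, fun i j hij n => ?_⟩, fun v φ => ?_⟩
  · fin_cases i <;> fin_cases j
    exacts [aa, ab, ba, bb]
  · fin_cases i <;> fin_cases j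
    · exact absurd rfl hij
    · exact (t n).1
    · exact mon_symm (zpow_ne_zero n l0) (zpow_neg l n ▸ (t (-n)).1)
    · exact absurd rfl hij
  · rw [← add_zero (_ + _ * _ * η ⬝ᵥ x), ← mul_zero (ξ ⬝ᵥ y * η ⬝ᵥ x * (ξ ⬝ᵥ v * φ ⬝ᵥ x + β ⬝ᵥ v * φ ⬝ᵥ b)), ← h2]
    simp only [cons_val_zero, cons_val_one, eb, eβ, add_dotProduct, dotProduct_add, smul_dotProduct,
      dotProduct_smul, ha, hb, smul_eq_mul]
    field_simp
    ring

namespace Fr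

variable (h : Fr G l e ε)
include h

/-- `z = v - v_i e_i - v_j e_j`, `ζ = φ - φ_i ε_i - φ_j ε_j`, `δ = ζ z ≠ 0`; `star` for
`G.comap (emb A B _)`, `A` with columns `e_i, e_j, z`, `B` with rows `ε_i, ε_j, δ⁻¹ ζ` (`emb_tv`; `Sg` passes
to the comap as `A *ᵥ ·` and `· ᵥ* B` are injective), `c = 1`, `c' = l`. -/
theorem tri [Finite G] (hs : Sg G) {i j : Fin r} (hij : i ≠ j) {v φ : ι → K} (s : Tv G v φ)
    (hδ : (ε i ⬝ᵥ v) * (φ ⬝ᵥ e i) + (ε j ⬝ᵥ v) * (φ ⬝ᵥ e j) ≠ 0) :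
    (ε j ⬝ᵥ v = 0 ∧ φ ⬝ᵥ e j = 0 ∧ (ε i ⬝ᵥ v) * (φ ⬝ᵥ e i) = 1) ∨
      (ε i ⬝ᵥ v = 0 ∧ φ ⬝ᵥ e i = 0 ∧ (ε j ⬝ᵥ v) * (φ ⬝ᵥ e j) = 1) := by
  obtain ⟨δ, eδ⟩ : ∃ δ, δ = -((ε i ⬝ᵥ v) * (φ ⬝ᵥ e i) + (ε j ⬝ᵥ v) * (φ ⬝ᵥ e j)) := ⟨_, rfl⟩
  have d0 : δ ≠ 0 := eδ ▸ neg_ne_zero.2 hδ
  let A : Matrix ι (Fin 3) K := (of ![e i, e j, v - (ε i ⬝ᵥ v) • e i - (ε j ⬝ᵥ v) • e j])ᵀ
  let B : Matrix (Fin 3) ι K := of ![ε i, ε j, δ⁻¹ • (φ - (φ ⬝ᵥ e i) • ε i - (φ ⬝ᵥ e j) • ε j)]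
  have hA : ∀ a b c : K, A *ᵥ ![a, b, c] =
      a • e i + b • e j + c • (v - (ε i ⬝ᵥ v) • e i - (ε j ⬝ᵥ v) • e j) := fun a b c => by
    ext m; simp [A, mulVec, dotProduct, Fin.sum_univ_three]; ring
  have hB : ∀ a b c : K, ![a, b, c] ᵥ* B =
      a • ε i + b • ε j + c • δ⁻¹ • (φ - (φ ⬝ᵥ e i) • ε i - (φ ⬝ᵥ e j) • ε j) := fun a b c => by
    ext m; simp [B, vecMul, dotProduct, Fin.sum_univ_three]
  have BA : B * A = 1 := Matrix.ext fun a b => by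
    change ![ε i, ε j, δ⁻¹ • (φ - (φ ⬝ᵥ e i) • ε i - (φ ⬝ᵥ e j) • ε j)] a ⬝ᵥ
      ![e i, e j, v - (ε i ⬝ᵥ v) • e i - (ε j ⬝ᵥ v) • e j] b = _
    fin_cases a <;> fin_cases b <;> simp [h.dual, hij, hij.symm, s.dot]
    field_simp
    rw [eδ]; ring
  have iA : Function.Injective (A *ᵥ ·) := fun a b e => by
    simpa [BA] using congrArg (B *ᵥ ·) e
  have iB : Function.Injective (· ᵥ* B) := fun a b e => by
    simpa [BA] using congrArg (· ᵥ* A) e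
  have nA : ∀ {a}, a ≠ 0 → A *ᵥ a ≠ 0 := fun n e => n (iA (e.trans (mulVec_zero A).symm))
  have nB : ∀ {a}, a ≠ 0 → a ᵥ* B ≠ 0 := fun n e => n (iB (e.trans (zero_vecMul B).symm))
  have : Finite (G.comap (emb A B BA)) := Finite.of_injective (fun g => (⟨_, g.2⟩ : G))
    fun a b e => Subtype.ext (emb_injective BA (congrArg Subtype.val e))
  have t : ∀ n : ℤ, Tv (G.comap (emb A B BA)) ![1, l ^ n, 0] ![1, (l ^ n)⁻¹, 0] := fun n => by
    simpa [emb_tv, hA, hB] using h.tv i j hij n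
  have := star h.two (H := G.comap (emb A B BA))
    ⟨fun a b c t1 t2 => iB (hs.cen (nA a) (nB b) (nB c) ((emb_tv BA).1 t1) ((emb_tv BA).1 t2)),
      fun a b c t1 t2 => iA (hs.ax (nA a) (nA b) (nB c) ((emb_tv BA).1 t1) ((emb_tv BA).1 t2))⟩
    (zpow_ne_zero 0 h.ne) (zpow_ne_zero 1 h.ne) (by simpa using h.cube.symm) (t 0) (t 1)
    (v := ![ε i ⬝ᵥ v, ε j ⬝ᵥ v, 1]) (φ := ![φ ⬝ᵥ e i, φ ⬝ᵥ e j, δ]) (by
      rw [emb_tv, hA, hB, smul_inv_smul₀ d0]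
      convert s using 1 <;> module) rfl d0
  exact this

/-- Rescale to `v_i = φ_i = 1`; the new vectors are `z = v - e_i`, `ζ = φ - ε_i` (`Fin.snoc`).  With
`j ≠ i`: conjugating `(e_i + c e_j)` by `s` gives `z + c e_j`; conjugating these by
`(e_m + c' e_j)` gives all `z + c e_m`. -/
theorem ext (h2 : 2 ≤ r) {i : Fin r} {v φ : ι → K} (s : Tv G v φ)
    (h1 : (ε i ⬝ᵥ v) * (φ ⬝ᵥ e i) = 1) (h0 : ∀ j, j ≠ i → ε j ⬝ᵥ v = 0 ∧ φ ⬝ᵥ e j = 0) :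
    ∃ e' ε' : Fin (r + 1) → ι → K, Fr G l e' ε' := by
  have t2 := h.two
  have n := left_ne_zero_of_mul_eq_one h1
  obtain ⟨z, ζ, s, z0, ζ0⟩ : ∃ z ζ, Tv G (e i + z) (ε i + ζ) ∧ (∀ j, ε j ⬝ᵥ z = 0) ∧ ∀ j, ζ ⬝ᵥ e j = 0 := by
    refine ⟨(ε i ⬝ᵥ v)⁻¹ • v - e i, (ε i ⬝ᵥ v) • φ - ε i, by simpa using mon_scale s (inv_ne_zero n),
      fun j => ?_, fun j => ?_⟩ <;> by_cases a : j = i
    · simp [a, n, h.dual]
    · simp [a, h0 j a, h.dual]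
    · simp [a, h1, h.dual]
    · simp [Ne.symm a, h0 j a, h.dual]
  have zz : ζ ⬝ᵥ z = 1 := by
    have := s.dot
    simp only [add_dotProduct, dotProduct_add, h.dual, z0, ζ0, if_true] at this
    linear_combination this - t2
  have k1 : ∀ j, j ≠ i → ∀ n : ℤ, Tv G (z + l ^ n • e j) (ζ + (l ^ n)⁻¹ • ε j) := fun j a n => by
    convert s.conj_tv (h.tv i j a.symm n) using 1 <;> simp [h.dual, z0, ζ0, a, a.symm]
    · linear_combination (norm := module) (-t2) • e i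
    · linear_combination (norm := module) t2 • ζ
  have k2 : ∀ j, ∀ n : ℤ, Tv G (z + l ^ n • e j) (ζ + (l ^ n)⁻¹ • ε j) := fun j n => by
    by_cases a : j = i
    swap
    · exact k1 j a n
    obtain ⟨m, hm⟩ : ∃ m, m ≠ i := have : Nontrivial (Fin r) := Fin.nontrivial_iff_two_le.2 h2; exists_ne i
    convert (h.tv i m hm.symm 0).conj_tv (k1 m hm n) using 1 <;> simp [h.dual, z0, ζ0, a, hm, hm.symm]
    · linear_combination (norm := module) (-l ^ n * t2) • e m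
    · linear_combination (norm := module) ((l ^ n)⁻¹ * t2) • ε i
  refine ⟨Fin.snoc e z, Fin.snoc ε ζ, t2, h.ne, h.cube, fun a b => ?_, fun a b ab n => ?_⟩ <;>
    induction a using Fin.lastCases <;> induction b using Fin.lastCases
  · simp [zz]
  · simp [ζ0, (Fin.castSucc_ne_last _).symm]
  · simp [z0, Fin.castSucc_ne_last]
  · simp [h.dual]
  · exact absurd rfl ab
  · simpa using k2 _ n
  · simpa using mon_symm (zpow_ne_zero n h.ne) (zpow_neg l n ▸ k2 _ (-n))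
  · simpa using h.tv _ _ (fun e => ab (congrArg _ e)) n

end Fr

/-- Extension of scalars: a transvection of `P.map f` comes from a transvection of `P` (its matrix
minus `1` has rank one: for `N a b ≠ 0` take the column `b` and the row `a` divided by `N a b`). -/
theorem tv_map (f : F →+* K) {v φ : ι → K} (hv : v ≠ 0) (hφ : φ ≠ 0)
    (h : Tv (P.map (GeneralLinearGroup.map f)) v φ) :
    ∃ (v₀ φ₀ : ι → F) (c : K), c ≠ 0 ∧ Tv P v₀ φ₀ ∧ v = c • (f ∘ v₀) ∧ φ = c⁻¹ • (f ∘ φ₀) := by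
  obtain ⟨g, hg, e⟩ := h.2
  obtain ⟨a, ha⟩ := Function.ne_iff.1 hv
  obtain ⟨b, hb⟩ := Function.ne_iff.1 hφ
  replace ha : v a ≠ 0 := ha
  replace hb : φ b ≠ 0 := hb
  have N : ∀ i j, f ((g.1 - 1) i j) = v i * φ j := fun i j => by
    have : f (g.1 i j) = (1 + vecMulVec v φ) i j := congrArg (fun x : GL ι K => x.1 i j) e
    rw [Matrix.sub_apply, map_sub, this, Matrix.add_apply, vecMulVec_apply, one_apply, one_apply]
    split_ifs <;> simp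
  have d : (fun j => (g.1 - 1) a j / (g.1 - 1) a b) ⬝ᵥ (fun i => (g.1 - 1) i b) = 0 := f.injective (by
    rw [map_zero, ← h.dot, dotProduct, map_sum]
    refine Finset.sum_congr rfl fun j _ => ?_
    rw [map_mul, map_div₀, N, N, N]
    field_simp)
  refine ⟨_, _, (φ b)⁻¹, inv_ne_zero hb, ⟨d, ?_⟩, funext fun i => ?_, funext fun j => ?_⟩
  · refine (congrArg (· ∈ P) (Units.ext ((tvGL_coe _ _ d).trans (eq_sub_iff_add_eq'.1
      (Matrix.ext fun i j => f.injective ?_))))).mpr hg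
    rw [vecMulVec_apply, map_mul, map_div₀, N, N, N, N]
    field_simp
  · simp only [Pi.smul_apply, Function.comp, N, smul_eq_mul]
    field_simp
  · simp only [Pi.smul_apply, Function.comp, map_div₀, N, smul_eq_mul]
    field_simp

end Cfsg.Lib.TVn
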