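import Cfsg.Agent.Lib.TVn.Cyc

/-!
# Transvection groups: two axes through a centre
-/

set_option autoImplicit false

namespace Cfsg.Lib.TVn

open scoped MatrixGroups Matrix commutatorElement
open Cfsg.Geo Cfsg.Lib.Asch Cfsg.Lib.Linear Module Matrix

variable {ι : Type} [Fintype ι] [DecidableEq ι] {F : Type*} [Field F] {P : Subgroup (GL ι F)}
  {k : Subfield F}

/-- The span of the axes through `v`. -/
def Ax (P : Subgroup (GL ι F)) (k : Subfield F) (v : ι → F) : Submodule F (ι → F) :=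
  Submodule.span F {ψ | Fl P k v ψ}

theorem span_mem {v ψ : ι → F} (f : Fl P k v ψ) : ψ ∈ Ax P k v := Submodule.subset_span f

theorem span_ex {u w ρ : ι → F} (h : ρ ∈ Ax P k u) (n : ρ ⬝ᵥ w ≠ 0) :
    ∃ ψ, Fl P k u ψ ∧ ψ ⬝ᵥ w ≠ 0 := by
  by_contra hn
  push Not at hn
  exact n (dotProduct_comm w ρ ▸ (Submodule.span_le (p := dotKer w)).2
    (fun ψ f => (dotProduct_comm w ψ).trans (hn ψ f)) h)

theorem span_dot {v ρ : ι → F} (h : ρ ∈ Ax P k v) : ρ ⬝ᵥ v = 0 := by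
  by_contra n
  obtain ⟨ψ, f, e⟩ := span_ex h n
  exact e f.dot

theorem span_conj {u w ρ : ι → F} {g : GL ι F} (hg : g ∈ P) {γ : F} (h0 : γ ≠ 0)
    (e : g.1 *ᵥ u = γ • w) (h : ρ ∈ Ax P k u) : ρ ᵥ* (g⁻¹).1 ∈ Ax P k w := by
  induction h using Submodule.span_induction with
  | mem ψ f =>
    have := (Fl.conj f hg).rescale (inv_ne_zero h0)
    rw [e, inv_smul_smul₀ h0, inv_inv] at this
    exact ((Ax P k w).smul_mem_iff h0).1 (span_mem this)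
  | zero => rw [zero_vecMul]; exact zero_mem _
  | add x y _ _ a b => rw [add_vecMul]; exact add_mem a b
  | smul c x _ a => rw [smul_vecMul]; exact Submodule.smul_mem _ c a

theorem span_opp [Finite F] {u φ w ξ : ι → F} (h1 : Fl P k u φ) (h2 : Fl P k w ξ) (a : φ ⬝ᵥ w ≠ 0)
    (b : ξ ⬝ᵥ u ≠ 0) : finrank F (Ax P k u) ≤ finrank F (Ax P k w) ∧
      ∀ ρ ∈ Ax P k u, ρ ⬝ᵥ w = 0 → ρ ∈ Ax P k w := by
  obtain ⟨g, hg, γ, h0, e, fix, hW⟩ := h2.tv.exists_swap h1.tv a b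
  constructor
  · have inj : Function.Injective (g⁻¹).1.vecMulLinear := fun x y e' => by
      simpa using congrArg (· ᵥ* g.1) e'
    rw [(Submodule.equivMapOfInjective _ inj (Ax P k u)).finrank_eq]
    refine Submodule.finrank_mono ?_
    rintro _ ⟨ρ, hρ, rfl⟩
    exact span_conj hg h0 e hρ
  · intro ρ hρ hw
    have t := (Tv.transport hg e fix hW a b h1.dot h2.dot hw (span_dot hρ)).1
    have : ρ ᵥ* g.1 = ρ := by
      ext i
      have := t (Pi.single i 1)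
      rwa [dotProduct_mulVec, dotProduct_single_one, dotProduct_single_one] at this
    have t2 := span_conj hg h0 e hρ
    rwa [← this, vecMul_vecMul, Units.mul_inv, vecMul_one] at t2

/-- `Tv.exists_swap` gives `g ∈ P` with `g u = γ w`; conjugation maps flags at `u` to flags at `w`
(`Fl.conj`, `Fl.rescale`), so `Ax w = (Ax u) g⁻¹`, and `g` fixes every `ρ` killing `u` and `w`
(`Tv.transport`). -/
theorem ax_opp [Finite F] {u φ w ξ : ι → F} (h1 : Fl P k u φ) (h2 : Fl P k w ξ) (a : φ ⬝ᵥ w ≠ 0)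
    (b : ξ ⬝ᵥ u ≠ 0) : finrank F (Ax P k u) = finrank F (Ax P k w) ∧
      ∀ ρ ∈ Ax P k u, ρ ⬝ᵥ w = 0 → ρ ∈ Ax P k w :=
  ⟨le_antisymm (span_opp h1 h2 a b).1 (span_opp h2 h1 b a).1, (span_opp h1 h2 a b).2⟩

theorem span_lt {u w ξ : ι → F} (h2 : Fl P k w ξ) (b : ξ ⬝ᵥ u ≠ 0)
    (hn : ¬ ∃ ψ, Fl P k u ψ ∧ ψ ⬝ᵥ w ≠ 0) : finrank F (Ax P k u) < finrank F (Ax P k w) := by
  push Not at hn
  refine Submodule.finrank_lt_finrank_of_lt (lt_of_le_of_ne (Submodule.span_le.2 fun ψ f => ?_)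
    fun e => b (span_dot (e ▸ span_mem h2)))
  exact ((Ax P k w).smul_mem_iff b).1 (span_mem (Fl.comm h2.tv f b h2.1 (hn ψ f)))

theorem span_le [Finite F] {u w ξ : ι → F} (h2 : Fl P k w ξ) (b : ξ ⬝ᵥ u ≠ 0) :
    finrank F (Ax P k u) ≤ finrank F (Ax P k w) := by
  by_cases hn : ∃ ψ, Fl P k u ψ ∧ ψ ⬝ᵥ w ≠ 0
  · obtain ⟨ψ, f, e⟩ := hn
    exact (span_opp f h2 e b).1
  · exact (span_lt h2 b hn).le

/-- Let `s` be the largest dimension of `Ax u`, `u` a centre.  If `dim Ax u = s` and `(w, ξ)` is a flag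
with `ξ u ≠ 0`, then some flag `(u, φ)` has `φ w ≠ 0` (otherwise `Fl.comm` gives
`Ax u ≤ Ax w`, and `ξ ∈ Ax w \ Ax u`), so `dim Ax w = s` by `ax_opp`.  Two steps of this (`mid`) reach
every centre. -/
theorem Fam0.ax_symm [Finite F] (h : Fam0 P k) {u φ w ξ : ι → F} (h1 : Fl P k u φ)
    (h2 : Fl P k w ξ) : finrank F (Ax P k u) = finrank F (Ax P k w) ∧
      (ξ ⬝ᵥ u ≠ 0 → ∃ ψ, Fl P k u ψ ∧ ψ ⬝ᵥ w ≠ 0) := by
  have key : ∀ {u φ w ξ : ι → F}, Fl P k u φ → Fl P k w ξ →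
      finrank F (Ax P k u) ≤ finrank F (Ax P k w) := fun h1 h2 => by
    obtain ⟨x, ζ, f, a, b⟩ := h.mid h1.1 h2.2.1
    exact (span_le f a).trans (span_le h2 b)
  refine ⟨le_antisymm (key h1 h2) (key h2 h1), fun b => by_contra fun hn => ?_⟩
  exact absurd (key h2 h1) (not_le.2 (span_lt h2 b hn))

/-- `H(a, b) = H(b, a)` for adjacent centres. -/
theorem Fam0.span_adj [Finite F] (h : Fam0 P k) {a b β α ρ : ι → F} (fb : Fl P k b β)
    (hα : α ∈ Ax P k a) (n : α ⬝ᵥ b ≠ 0) (hρ : ρ ∈ Ax P k a) (e : ρ ⬝ᵥ b = 0) : ρ ∈ Ax P k b := by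
  obtain ⟨φ, fa, e1⟩ := span_ex hα n
  obtain ⟨ψ, fb', e2⟩ := (h.ax_symm fb fa).2 e1
  exact (ax_opp fa fb' e1 e2).2 ρ hρ e

/-- Adjacency is symmetric. -/
theorem Fam0.span_rev [Finite F] (h : Fam0 P k) {a b β α : ι → F} (fb : Fl P k b β)
    (hα : α ∈ Ax P k a) (n : α ⬝ᵥ b ≠ 0) : ∃ ψ, Fl P k b ψ ∧ ψ ⬝ᵥ a ≠ 0 := by
  obtain ⟨φ, fa, e1⟩ := span_ex hα n
  exact (h.ax_symm fb fa).2 e1

theorem Fam0.span_x [Finite F] (h : Fam0 P k) {a b β u ψ α η : ι → F} (fb : Fl P k b β)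
    (fu : Fl P k u ψ) (hα : α ∈ Ax P k a) (n : α ⬝ᵥ b ≠ 0) (hη : η ∈ Ax P k a) (e1 : η ⬝ᵥ b = 0)
    (e2 : η ⬝ᵥ u ≠ 0) : Ax P k u ≤ Ax P k a ⊔ Ax P k b := fun ρ hρ => by
  have m1 : α - (α ⬝ᵥ u / η ⬝ᵥ u) • η ∈ Ax P k a := sub_mem hα (Submodule.smul_mem _ _ hη)
  generalize hθ : α - (α ⬝ᵥ u / η ⬝ᵥ u) • η = θ at m1
  have t1 : θ ⬝ᵥ u = 0 := by simp [← hθ, div_mul_cancel₀ _ e2]
  have t2 : θ ⬝ᵥ b ≠ 0 := by simpa [← hθ, e1] using n
  have m2 : θ ∈ Ax P k u := h.span_adj fu hη e2 m1 t1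
  have m3 : ρ - (ρ ⬝ᵥ b / θ ⬝ᵥ b) • θ ∈ Ax P k b :=
    h.span_adj fb m2 t2 (sub_mem hρ (Submodule.smul_mem _ _ m2)) (by simp [div_mul_cancel₀ _ t2])
  rw [← sub_add_cancel ρ ((ρ ⬝ᵥ b / θ ⬝ᵥ b) • θ)]
  exact add_mem (Submodule.mem_sup_right m3) (Submodule.mem_sup_left (Submodule.smul_mem _ _ m1))

theorem Fam0.span_y [Finite F] (h : Fam0 P k) {a b β c γ u ψ α η ρ : ι → F} (fb : Fl P k b β)
    (fc : Fl P k c γ) (fu : Fl P k u ψ) (hα : α ∈ Ax P k a) (n : α ⬝ᵥ b ≠ 0) (hη : η ∈ Ax P k a)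
    (e1 : η ⬝ᵥ b = 0) (e2 : η ⬝ᵥ c ≠ 0) (hρ : ρ ∈ Ax P k a) (e3 : ρ ⬝ᵥ u ≠ 0) :
    Ax P k u ≤ Ax P k a ⊔ Ax P k b := by
  by_cases e : η ⬝ᵥ u = 0
  · refine (h.span_x fc fu hη e2 (η := ρ - (ρ ⬝ᵥ c / η ⬝ᵥ c) • η)
      (sub_mem hρ (Submodule.smul_mem _ _ hη)) (by simp [div_mul_cancel₀ _ e2])
      (by simpa [e] using e3)).trans (sup_le le_sup_left (h.span_x fb fc hα n hη e1 e2))
  · exact h.span_x fb fu hα n hη e1 e

/-- The stabiliser of a space of row vectors. -/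
def spanStab (W : Submodule F (ι → F)) : Subgroup (GL ι F) where
  carrier := {g | ∀ w, w ∈ W ↔ w ᵥ* g.1 ∈ W}
  one_mem' w := by simp
  mul_mem' {a b} ha hb w := by rw [Units.val_mul, ← vecMul_vecMul, ← hb, ← ha]
  inv_mem' {a} ha w := by rw [ha (w ᵥ* (a⁻¹).1), vecMul_vecMul, Units.inv_mul, vecMul_one]

/-- **Span lemma.**  All `Ax u` have dimension `s ≥ 2`.  Call centres `u, w` adjacent if `Ax u` does
not kill `w` (symmetric); then `H(u, w) = {ρ ∈ Ax u | ρ w = 0} = H(w, u)` is a hyperplane of both.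
(X) If `a, b, u` are pairwise adjacent and `H(a, b) ≠ H(a, u)` then `Ax u ≤ Ax a ⊔ Ax b`: the
hyperplanes `H(u, a)`, `H(u, b)` of `Ax u` differ (else `H(a, u)` kills `b`) and so span it.
Take `v` adjacent to `w`, `0 ≠ η ∈ H(v, w)` and a centre `w'` with `η w' ≠ 0`; `v, w, w'` are pairwise
adjacent and `Π = Ax v ⊔ Ax w = Ax v ⊔ Ax w' = Ax w ⊔ Ax w'` by (X).  If `u` is adjacent to `v` then
`H(v, u) ≠ H(v, w)` or `≠ H(v, w')`; in the first case `u` is adjacent to `w` (an element of `H(v, w)`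
does not kill `u`) and `Ax u ≤ Π`, similarly in the second; the same for `u` adjacent to `w`.
Otherwise `Π` kills `u`.  So `Π` is invariant (`gen`, `Ir.eq_top'`), `Π = ⊤`, of dimension `s + 1`, and
`Ax v ≤ v^⊥` has dimension `n - 1`. -/
theorem Fam0.span [Finite F] (h : Fam0 P k) {x ξ ξ' : ι → F} (h1 : Fl P k x ξ) (h2 : Fl P k x ξ')
    (hn : ∀ c : F, ξ' ≠ c • ξ) {v φ : ι → F} (f : Fl P k v φ) {ρ : ι → F} (hρ : ρ ⬝ᵥ v = 0) :
    ρ ∈ Ax P k v := by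
  obtain ⟨w, χ, fw, a1, -⟩ := h.mid f.1 f.2.1
  obtain ⟨α, fα, a2⟩ := h.span_rev f (span_mem fw) a1
  obtain ⟨η, hη, η0⟩ : ∃ η ∈ Ax P k v ⊓ dotKer w, η ≠ 0 := by
    refine (Submodule.ne_bot_iff _).1 fun e => ?_
    have := finrank_le_inf_dotKer (Ax P k v) w
    rw [e, finrank_bot, zero_add, (h.ax_symm f h1).1] at this
    obtain ⟨y, hy⟩ := finrank_le_one_iff.1 this
    obtain ⟨c, hc⟩ := hy ⟨ξ, span_mem h1⟩
    obtain ⟨c', hc'⟩ := hy ⟨ξ', span_mem h2⟩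
    have t1 : c • y.1 = ξ := congrArg Subtype.val hc
    have t2 : c' • y.1 = ξ' := congrArg Subtype.val hc'
    have c0 : c ≠ 0 := fun e => h1.2.1 (by rw [← t1, e, zero_smul])
    exact hn (c' / c) (by rw [← t1, ← t2, smul_smul, div_mul_cancel₀ _ c0])
  have e1 : η ⬝ᵥ w = 0 := (dotProduct_comm _ _).trans hη.2
  obtain ⟨c, γ, fc, -, e2⟩ := h.mid f.1 η0
  have hP : P ≤ spanStab (Ax P k v ⊔ Ax P k w) := h.gen _ fun u ψ fu => ⟨fu.dot, fun y => by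
    rw [tvGL_coe, vecMul_add, vecMul_one, vecMul_vecMulVec]
    by_cases hu : Ax P k u ≤ Ax P k v ⊔ Ax P k w
    · exact (Submodule.add_mem_iff_left _ (Submodule.smul_mem _ _ (hu (span_mem fu)))).symm
    have key : ∀ y ∈ Ax P k v ⊔ Ax P k w, y ⬝ᵥ u = 0 := fun y hy => by
      obtain ⟨s, hs, t, ht, rfl⟩ := Submodule.mem_sup.1 hy
      have s0 : s ⬝ᵥ u = 0 := by_contra fun n =>
        hu (h.span_y fw fc fu (span_mem fα) a2 hη.1 e1 e2 hs n)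
      have t0 : t ⬝ᵥ u = 0 := by_contra fun n =>
        hu ((h.span_y f fc fu (span_mem fw) a1 (h.span_adj fw (span_mem fα) a2 hη.1 e1)
          (span_dot hη.1) e2 ht n).trans (sup_comm _ _).le)
      rw [add_dotProduct, s0, t0, add_zero]
    refine ⟨fun hy => by rwa [key y hy, zero_smul, add_zero], fun hy => ?_⟩
    have := key _ hy
    rw [add_dotProduct, smul_dotProduct, fu.dot, smul_zero, add_zero] at this
    rwa [this, zero_smul, add_zero] at hy⟩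
  have top := h.ir.eq_top' (Ax P k v ⊔ Ax P k w) ((Submodule.ne_bot_iff _).2
    ⟨φ, Submodule.mem_sup_left (span_mem f), f.2.1⟩) fun g hg y hy => (hP hg y).1 hy
  obtain ⟨s, hs, t, ht, rfl⟩ := Submodule.mem_sup.1 (top ▸ Submodule.mem_top (x := ρ))
  rw [add_dotProduct, span_dot hs, zero_add] at hρ
  exact add_mem hs (h.span_adj f (span_mem fw) a1 ht hρ)

/-- For `k = ⊤` the axes through `v` together with `0` form a subspace (`Fl.add`, `Fl.smul`), so `v`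
is a full centre: `specialLinear_le_of_irreducible`. -/
theorem Fam0.sl_le [Finite F] (h : Fam0 P ⊤) {x ξ ξ' : ι → F} (h1 : Fl P ⊤ x ξ)
    (h2 : Fl P ⊤ x ξ') (hn : ∀ c : F, ξ' ≠ c • ξ) : specialLinear ι F ≤ P := by
  refine specialLinear_le_of_irreducible h1.1 (fun ρ hρ => ?_) h.ir.eq_top
  have key : ∀ ρ ∈ Ax P ⊤ x, ∀ c : F, Tv P x (c • ρ) := fun ρ hρ => by
    induction hρ using Submodule.span_induction with
    | mem ψ f => exact fun c => f.2.2 c trivial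
    | zero => exact fun c => by rw [smul_zero]; exact Tv.zero_right P x
    | add _ _ _ _ a b => exact fun c => by rw [smul_add]; exact (a c).add_right (b c)
    | smul d _ _ a => exact fun c => by rw [smul_smul]; exact a _
  simpa using key ρ (h.span h1 h2 hn h1 hρ) 1

/-- **A linear pair, `|k| ≥ 3`.**  Let `o = (x, ξ)`, `(y, η)` with `ξ y ≠ 0 = η x`; `ψ₀ = ξ(y) η` is an
axis through `x`, not a multiple of `ξ`.  Let `a = (v, φ)`, `b = (w, χ)` be flags with `ξ v = ξ w = 1`,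
`φ x = χ x = -1`.  Claim `χ v ∈ k` (and symmetrically).  Every axis `ψ'` through `x` has `ψ' v, ψ' w ∈ k`
(`two`).  `ψ = ψ₀ - ψ₀(v) ξ` is an axis through `x` killing `v`, so `(v, ψ)` is a flag (`Fl.comm`).
If `ψ w ≠ 0`: `ψ(w) χ(v) ∈ k` (`two`).  Otherwise `(w, ψ)` is a flag too; take a flag `(z, ζ)` with
`ψ z = 1`, `ζ x ≠ 0` (`mid`, `rescale`); conjugating by `1 + c x ξ` we get `ζ w ≠ 0`.  For every flag
`(z', ζ')` with `ψ z' = 1` we have `ζ' v, ζ' w ∈ k`; apply it to `(z, ζ)` and to its conjugate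
`(z + χ(z) w, ζ - ζ(w) χ)`.  So `trace_mem` with `gen_opp` gives `k = ⊤`, and `sl_le` applies. -/
theorem Fam.sl_le [Finite F] (hF : Fam P k) (h3 : 3 ≤ Nat.card k) (ht : TrTop P)
    (hn : ¬ NL P k) : specialLinear ι F ≤ P := by
  obtain ⟨y, η, x, ξ, fy, fx, e1, e2⟩ : ∃ y η x ξ, Fl P k y η ∧ Fl P k x ξ ∧ η ⬝ᵥ x = 0 ∧ ξ ⬝ᵥ y ≠ 0 := by
    by_contra h
    push Not at h
    exact hn fun f g e => h _ _ _ _ f g e
  have f0 := Fl.comm fx.tv fy e2 fx.1 e1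
  have n0 : ∀ c : F, (ξ ⬝ᵥ y) • η ≠ c • ξ := fun c e => by
    have := congrArg (· ⬝ᵥ y) e
    simp only [smul_dotProduct, fy.dot, smul_eq_mul, mul_zero] at this
    rw [(mul_eq_zero.1 this.symm).resolve_right e2, zero_smul] at e
    exact f0.2.1 e
  generalize (ξ ⬝ᵥ y) • η = ψ₀ at f0 n0
  have key : ∀ {v φ w χ}, Fl P k v φ → Fl P k w χ → ξ ⬝ᵥ v = 1 → φ ⬝ᵥ x = -1 → χ ⬝ᵥ x = -1 →
      χ ⬝ᵥ v ∈ k := fun {v φ w χ} fv fw a1 a2 a3 => by
    have m1 : ψ₀ ⬝ᵥ v ∈ k := by simpa [a2] using hF.two f0 fv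
    obtain ⟨ψ, f1, b1⟩ : ∃ ψ, Fl P k x ψ ∧ ψ ⬝ᵥ v = 0 := by
      by_cases e : ψ₀ ⬝ᵥ v = 0
      · exact ⟨ψ₀, f0, e⟩
      · refine ⟨_, f0.add (fx.smul (k.neg_mem m1) (neg_ne_zero.2 e)) fun e' => n0 (ψ₀ ⬝ᵥ v) ?_,
          by simp [a1]⟩
        rw [neg_smul, ← sub_eq_add_neg] at e'
        exact sub_eq_zero.1 e'
    have fl : ∀ {v φ}, Fl P k v φ → φ ⬝ᵥ x = -1 → ψ ⬝ᵥ v = 0 → Fl P k v ψ := fun f a b => by
      have := (Fl.comm f.tv f1 (by simp [a]) f.1 b).smul (k.neg_mem k.one_mem) (by simp)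
      simpa [a] using this
    have f2 := fl fv a2 b1
    by_cases e : ψ ⬝ᵥ w = 0
    swap
    · have m2 : ψ ⬝ᵥ w ∈ k := by simpa [a3] using hF.two f1 fw
      simpa [e] using k.mul_mem (k.inv_mem m2) (hF.two f2 fw)
    have f3 := fl fw a3 e
    obtain ⟨z, ζ, fz, c1, c2⟩ := hF.toFam0.mid fw.1 f1.2.1
    have t1 := hF.two f2 fz
    have t2 := hF.two f3 fz
    have t3 := hF.two f2 (fz.conj_tv fw.tv)
    have := k.div_mem (k.sub_mem t1 t3) t2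
    convert this using 1
    simp only [dotProduct_add, sub_dotProduct, dotProduct_smul, smul_dotProduct, smul_eq_mul, e]
    field_simp
    ring
  obtain rfl := ht k (trace_mem (O := {a | Fl P k a.1 a.2 ∧ ξ ⬝ᵥ a.1 = 1 ∧ a.2 ⬝ᵥ x = -1})
    (fun a ha => ha.1.dot) (fun a ha b hb => key hb.1 ha.1 hb.2.1 hb.2.2 ha.2.2)
    fun N hN => hF.gen_opp (Or.inl h3) fx N fun v φ f a b => hN (v, φ) ⟨f, a, b⟩)
  exact hF.toFam0.sl_le fx f0 n0

end Cfsg.Lib.TVn
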