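import Cfsg.Agent.Lib.TVn.Def
import Cfsg.Agent.Lib.Dim3.Diag
import Cfsg.Agent.S0205
import Cfsg.Agent.S0215

/-!
# Odd transpositions in dimension three
-/

set_option autoImplicit false

namespace Cfsg.Lib.TVn

open scoped MatrixGroups Matrix commutatorElement
open Cfsg.Geo Cfsg.Lib.Asch Cfsg.Lib.Linear Module Matrix

variable {ι : Type} [Fintype ι] [DecidableEq ι] {F : Type*} [Field F] {P : Subgroup (GL ι F)}
  {k : Subfield F}

variable {K : Type*} [Field K] {H : Subgroup (GL (Fin 3) K)}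

theorem star_dim {v w φ ψ : Fin 3 → K} (hv : v ≠ 0) (hφ : φ ≠ 0) (a : φ ⬝ᵥ v = 0) (b : φ ⬝ᵥ w = 0) (c : ψ ⬝ᵥ v = 0)
    (d : ψ ⬝ᵥ w = 0) : (∃ t : K, t • v = w) ∨ ∃ t : K, t • φ = ψ := by
  by_contra! n
  obtain ⟨x, x1, x2⟩ := exists_dot_of_notMem_span (u := φ) (v := ψ) fun m =>
    let ⟨t, e⟩ := Submodule.mem_span_singleton.1 m; n.2 t e
  obtain ⟨y, y1⟩ := exists_dot_eq_one hφ
  rw [dotProduct_comm] at x1 x2 y1
  have li : LinearIndependent K ![v, w, x, y] := by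
    refine Fintype.linearIndependent_iff.2 fun g hg => ?_
    simp only [Fin.sum_univ_four, cons_val_zero, cons_val_one, cons_val] at hg
    have e3 : g 3 = 0 := by simpa [a, b, x1, y1] using congrArg (φ ⬝ᵥ ·) hg
    have e2 : g 2 = 0 := by simpa [c, d, x2, e3] using congrArg (ψ ⬝ᵥ ·) hg
    rw [e2, e3, zero_smul, zero_smul, add_zero, add_zero] at hg
    have e1 : g 1 = 0 := by_contra fun e => n.1 (-((g 1)⁻¹ * g 0)) (by
      rw [neg_smul, mul_smul, eq_neg_of_add_eq_zero_left hg, smul_neg, neg_neg, inv_smul_smul₀ e])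
    rw [e1, zero_smul, add_zero, smul_eq_zero_iff_left hv] at hg
    intro i
    fin_cases i <;> assumption
  simpa using li.fintype_card_le_finrank

theorem star_sq (h2 : (2 : K) = 0) {v φ : Fin 3 → K} (h : φ ⬝ᵥ v = 0) : tvGL v φ h * tvGL v φ h = 1 :=
  GL_ext_mulVec fun x => by
    rw [GL_mul_mulVec, tvGL_mulVec, tvGL_mulVec, dotProduct_add, dotProduct_smul, h, smul_zero, add_zero, add_assoc, ← two_smul K, h2,
      zero_smul, add_zero, Units.val_one, one_mulVec]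

/-- A conjugate `d' = 1 + w ψ` of `d = 1 + v φ` in a Sylow 2-subgroup containing `d`: `d d'` has
2-power order, so `d d' - 1` is nilpotent and has trace `φ(w) ψ(v) = 0`; by `Sg.nl` both factors
vanish, in dimension three the centres or the axes are proportional, and `Sg` gives `d' = d`.
Apply `S0215` in the group `H`. -/
theorem star_z (h2 : (2 : K) = 0) [Finite H] (hs : Sg H) {v φ : Fin 3 → K} (hv : v ≠ 0)
    (hφ : φ ≠ 0) (h : Tv H v φ) : ∃ N : Subgroup H, N.Normal ∧ Odd (Nat.card N) ∧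
      ∀ g : H, (⟨_, h.2⟩ * g * (⟨_, h.2⟩ : H)⁻¹ * g⁻¹) ∈ N := by
  have : CharP K 2 := CharTwo.of_one_ne_zero_of_two_eq_zero one_ne_zero h2
  have o : orderOf (⟨_, h.2⟩ : H) = 2 := orderOf_eq_prime (Subtype.ext ((pow_two _).trans (star_sq h2 h.1))) fun e => by
    obtain ⟨x, hx⟩ := exists_dot_eq_one hφ
    have := tvGL_mulVec v φ h.1 x
    rw [show tvGL v φ h.1 = 1 from congrArg Subtype.val e, dotProduct_comm, hx] at this
    exact hv (by simpa using this)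
  obtain ⟨S, hS⟩ := (IsPGroup.of_card (n := 1) ((Nat.card_zpowers _).trans o) :
    IsPGroup 2 (Subgroup.zpowers (⟨_, h.2⟩ : H))).exists_le_sylow
  have m := hS (Subgroup.mem_zpowers _)
  refine Agent.S0215.result S _ o m fun g hg => Subtype.ext ?_
  obtain ⟨n, hn⟩ := S.isPGroup' ⟨_, mul_mem m hg⟩
  have t := h.conj g.2
  have hw := GL_mulVec_ne_zero g.1 hv
  have hψ := vecMul_inv_ne_zero g.1 hφ
  have hn : (tvGL v φ h.1 * (g.1 * tvGL v φ h.1 * g.1⁻¹)) ^ 2 ^ n = 1 := congrArg (fun x : S => x.1.1) hn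
  change g.1 * tvGL v φ h.1 * g.1⁻¹ = tvGL v φ h.1
  rw [conj_tvGL] at hn ⊢
  generalize_proofs _ p at hn ⊢
  generalize g.1.1 *ᵥ v = w at *
  generalize φ ᵥ* (g.1⁻¹).1 = ψ at *
  have nil : IsNilpotent ((tvGL v φ h.1 * tvGL w ψ p).1 - 1) := ⟨2 ^ n, by
    rw [sub_pow_char_pow_of_commute _ _ (Commute.one_right _), ← Units.val_pow_eq_pow_val, hn, one_pow, Units.val_one, sub_self]⟩
  have tr := (isNilpotent_trace_of_isNilpotent nil).eq_zero
  rw [Units.val_mul, tvGL_coe, tvGL_coe, add_mul, mul_add, mul_add, one_mul, one_mul, mul_one, vecMulVec_mul_vecMulVec,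
    add_assoc, add_sub_cancel_left, trace_add, trace_add, trace_vecMulVec, trace_vecMulVec, trace_vecMulVec, dotProduct_comm w, p,
    dotProduct_comm v, h.1, dotProduct_smul, zero_add, zero_add, smul_eq_mul, dotProduct_comm v] at tr
  have k : φ ⬝ᵥ w = 0 ∧ ψ ⬝ᵥ v = 0 := (mul_eq_zero.1 tr).elim (fun e => ⟨e, hs.nl hφ hw hψ h t e⟩)
    fun e => ⟨hs.nl hψ hv hφ t h e, e⟩
  refine GL_ext_mulVec fun x => ?_
  rw [tvGL_mulVec, tvGL_mulVec]
  rcases star_dim hv hφ h.1 k.1 k.2 p with ⟨c, rfl⟩ | ⟨c, rfl⟩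
  · have c0 := left_ne_zero_of_smul hw
    rw [← hs.cen hv hφ (smul_ne_zero c0 hψ) h (t.of_smul_left c0), smul_dotProduct, smul_smul, smul_eq_mul, mul_comm]
  · have c0 := left_ne_zero_of_smul hψ
    rw [← hs.ax hv (smul_ne_zero c0 hw) hφ h (t.smul_swap' k.1), smul_dotProduct, smul_smul, smul_eq_mul, mul_comm]

theorem star_sc {x y : GL (Fin 3) K} (h : x * y * x⁻¹ * y⁻¹ ∈ scalars (Fin 3) K) : ∃ ω : K, x.1 * y.1 = ω • (y.1 * x.1) := by
  obtain ⟨c, e⟩ := Dim3.mem_scalars_iff'.1 h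
  refine ⟨c, ?_⟩
  rw [← Units.val_mul, show x * y = x * y * x⁻¹ * y⁻¹ * (y * x) by group, Units.val_mul, e, smul_one_mul, Units.val_mul]

theorem star_nc (h2 : (2 : K) = 0) {v φ : Fin 3 → K} (hv : v ≠ 0) (hφ : φ ≠ 0) (h : φ ⬝ᵥ v = 0) {x y : GL (Fin 3) K} {ω : K}
    (c : (tvGL v φ h).1 * x.1 = x.1 * (tvGL v φ h).1) (e : x.1 * y.1 = ω • (y.1 * x.1)) (n : ω ≠ 1) : False := by
  have c1 : ∀ z, (φ ⬝ᵥ x.1 *ᵥ z) • v = (φ ⬝ᵥ z) • x.1 *ᵥ v := fun z => by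
    have := congrArg (· *ᵥ z) c
    simpa only [← mulVec_mulVec, tvGL_mulVec, mulVec_add, mulVec_smul, add_right_inj] using this
  have e1 : ∀ z, x.1 *ᵥ y.1 *ᵥ z = ω • y.1 *ᵥ x.1 *ᵥ z := fun z => by rw [mulVec_mulVec, e, smul_mulVec, mulVec_mulVec]
  obtain ⟨z, hz⟩ := exists_dot_eq_one hφ
  rw [dotProduct_comm] at hz
  obtain ⟨a, xv⟩ : ∃ a : K, x.1 *ᵥ v = a • v := ⟨_, by rw [c1 z, hz, one_smul]⟩
  have a0 : a ≠ 0 := left_ne_zero_of_smul (xv ▸ GL_mulVec_ne_zero x hv)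
  have px : ∀ z, φ ⬝ᵥ x.1 *ᵥ z = φ ⬝ᵥ z * a := fun z => smul_left_injective K hv (by simp only [c1, xv, smul_smul])
  have n1 : ω - 1 ≠ 0 := sub_ne_zero.2 n
  have p1 : φ ⬝ᵥ y.1 *ᵥ v = 0 := by
    have := px (y.1 *ᵥ v)
    rw [e1, xv, mulVec_smul, dotProduct_smul, dotProduct_smul, smul_eq_mul, smul_eq_mul] at this
    exact (mul_eq_zero.1 (show (ω - 1) * a * (φ ⬝ᵥ y.1 *ᵥ v) = 0 by linear_combination this)).resolve_left (mul_ne_zero n1 a0)
  have p2 : φ ⬝ᵥ y.1 *ᵥ y.1 *ᵥ v = 0 := by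
    have := px (y.1 *ᵥ y.1 *ᵥ v)
    rw [e1, e1, xv] at this
    simp only [mulVec_smul, dotProduct_smul, smul_eq_mul] at this
    exact (mul_eq_zero.1 (show (ω - 1) ^ 2 * a * (φ ⬝ᵥ y.1 *ᵥ y.1 *ᵥ v) = 0 by
      linear_combination this + (1 - ω) * a * (φ ⬝ᵥ y.1 *ᵥ y.1 *ᵥ v) * h2)).resolve_left (mul_ne_zero (pow_ne_zero 2 n1) a0)
  rcases star_dim (ψ := φ ᵥ* y.1) hv hφ h p1 (by rwa [← dotProduct_mulVec]) (by rwa [← dotProduct_mulVec]) with ⟨t, k⟩ | ⟨t, k⟩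
  · have t0 : t ≠ 0 := left_ne_zero_of_smul (k ▸ GL_mulVec_ne_zero y hv)
    have := e1 v
    rw [xv, mulVec_smul, ← k, mulVec_smul, xv, smul_smul, smul_smul, smul_smul] at this
    exact mul_ne_zero (mul_ne_zero n1 a0) t0 (by linear_combination -smul_left_injective K hv this)
  · have t0 : t ≠ 0 := left_ne_zero_of_smul (k ▸ vecMul_inv_ne_zero y⁻¹ hφ)
    have := px (y.1 *ᵥ z)
    rw [e1, dotProduct_smul, dotProduct_mulVec, dotProduct_mulVec φ y.1, ← k, smul_dotProduct, smul_dotProduct, px, hz] at this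
    simp only [smul_eq_mul] at this
    exact mul_ne_zero (mul_ne_zero n1 a0) t0 (by linear_combination this)

theorem star_diag (h2 : (2 : K) = 0) {l : K} (l0 : l ≠ 0) (l1 : l ≠ 1) {g : Matrix (Fin 3) (Fin 3) K}
    (e : diagonal ![l, l⁻¹, 1] * g = g * diagonal ![l, l⁻¹, 1]) : g.IsDiag := fun i j n => by
  have := congrFun (congrFun e i) j
  rw [diagonal_mul, mul_diagonal, mul_comm] at this
  refine by_contra fun k => ?_
  have := mul_left_cancel₀ k this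
  have a : l ≠ l⁻¹ := fun r => l1 (sub_eq_zero.1 (pow_eq_zero_iff two_ne_zero |>.1 (show (l - 1) ^ 2 = 0 by
    have : l * l = 1 := by rw [← mul_inv_cancel₀ l0, ← r]
    linear_combination this + (1 - l) * h2)))
  have b : l⁻¹ ≠ 1 := fun r => l1 (inv_eq_one.1 r)
  fin_cases i <;> fin_cases j
  exacts [n rfl, a this, l1 this, a this.symm, n rfl, b this, l1 this.symm, b this.symm, n rfl]

/-- `N` is solvable (`S0205`); let `M` be the last non-scalar term of its derived series.  If `M` or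
its centre is abelian and non-scalar, take it as `A`.  Otherwise `M' ≤ scalars`, `Z(M) ≤ scalars`.
A non-scalar `x ∈ M` has `y ∈ M` with `x y = ω y x`, `ω ≠ 1 = ω³` (determinants).  A transvection
`d = 1 + v φ` does not commute with such an `x`: else `x v = c v`, `φ x = c φ`, and `v, y v, y² v` are
eigenvectors for `c, ω c, ω² c`, a basis killed by `φ`.  For `g ∈ M`, `w = g · d g d⁻¹` has
`d w d⁻¹ = c w`, `c² = 1`, `c = 1`, so `w` is scalar: `d` and `d'` invert `M` modulo scalars, and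
`ρ = d d' = diag(l, l⁻¹, 1)` has `ρ x ρ⁻¹ = c x` with `c³ = 1`.  From `x⁻¹ ρ x = c ρ` and
`det (ρ - 1) = 0` we get `c ∈ {1, l, l⁻¹}`, so `c = 1`; `M` commutes with `ρ`, is diagonal, so abelian. -/
theorem star_ab (h2 : (2 : K) = 0) [Finite H] {N : Subgroup H} [N.Normal] (ho : Odd (Nat.card N))
    (hN : ∃ x ∈ N, x.1 ∉ scalars (Fin 3) K) {v φ w ψ : Fin 3 → K} (hv : v ≠ 0) (hφ : φ ≠ 0)
    (hw : w ≠ 0) (hψ : ψ ≠ 0) (h : Tv H v φ) (h' : Tv H w ψ) {l : K} (hl : l ^ 3 ≠ 1)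
    (e : (tvGL v φ h.1 * tvGL w ψ h'.1).1 = diagonal ![l, l⁻¹, 1]) :
    ∃ A : Subgroup H, A.Normal ∧ A ≤ N ∧ (∀ a ∈ A, ∀ b ∈ A, a * b = b * a) ∧
      ∃ x ∈ A, x.1 ∉ scalars (Fin 3) K := by
  let Z : Subgroup H := (scalars (Fin 3) K).comap H.subtype
  have nZ : Z.Normal := ⟨fun z hz g => by
    rwa [show g * z * g⁻¹ = z from Subtype.ext (mul_inv_eq_iff_eq_mul.2 (Dim3.comm_of_scalar hz g.1))]⟩
  obtain ⟨M, ⟨nM, MN, MZ⟩, min⟩ := exists_minimal_of_wellFoundedLT (fun M : Subgroup H => M.Normal ∧ M ≤ N ∧ ¬ M ≤ Z)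
    ⟨N, inferInstance, le_rfl, fun k => let ⟨x, a, b⟩ := hN; b (k a)⟩
  have lt := Core.commutator_lt_of_isSolvable (H := M) (Agent.S0205.result (ho.of_dvd_nat (Subgroup.card_dvd_of_le MN)))
    fun e => MZ (e ▸ bot_le)
  have cZ : ⁅M, M⁆ ≤ Z := by_contra fun k => lt.not_ge (min ⟨inferInstance, lt.le.trans MN, k⟩ lt.le)
  by_cases zZ : M ⊓ Subgroup.centralizer M ≤ Z
  swap
  · obtain ⟨x, a, b⟩ := SetLike.not_le_iff_exists.1 zZ
    exact ⟨M ⊓ Subgroup.centralizer M, inferInstance, inf_le_left.trans MN, fun a ha b hb => hb.2 a ha.1, x, a, b⟩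
  exfalso
  have inv : ∀ {v φ : Fin 3 → K}, v ≠ 0 → φ ≠ 0 → ∀ h : Tv H v φ, ∀ g ∈ M, g * (⟨_, h.2⟩ * g * (⟨_, h.2⟩ : H)⁻¹) ∈ Z := by
    intro v φ hv hφ h g hg
    have d2 : (⟨_, h.2⟩ : H) * ⟨_, h.2⟩ = 1 := Subtype.ext (star_sq h2 h.1)
    generalize hd : (⟨_, h.2⟩ : H) = d at *
    have m := nM.conj_mem g hg d
    by_contra n
    obtain ⟨y, hy, e⟩ : ∃ y ∈ M, y * (g * (d * g * d⁻¹)) ≠ g * (d * g * d⁻¹) * y := by
      by_contra! k
      exact n (zZ ⟨mul_mem hg m, k⟩)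
    obtain ⟨ω, e1⟩ := star_sc (cZ (Subgroup.commutator_mem_commutator (mul_mem hg m) hy))
    obtain ⟨c, e2⟩ := star_sc (x := d.1) (y := (g * (d * g * d⁻¹)).1) (by
      have := cZ (Subgroup.commutator_mem_commutator m hg)
      rwa [show ⁅d * g * d⁻¹, g⁆ = d * (g * (d * g * d⁻¹)) * d⁻¹ * (g * (d * g * d⁻¹))⁻¹ by
        rw [commutatorElement_def, inv_eq_of_mul_eq_one_right d2]
        simp only [_root_.mul_inv_rev, inv_eq_of_mul_eq_one_right d2, mul_assoc]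
        rw [← mul_assoc d d, d2, one_mul]] at this)
    generalize g * (d * g * d⁻¹) = x at *
    have d3 : d.1.1 * d.1.1 = 1 := congrArg (fun x : H => x.1.1) d2
    have c2 : (c * c) • x.1.1 = (1 : K) • x.1.1 := by
      have : d.1.1 * (d.1.1 * x.1.1) = d.1.1 * (c • (x.1.1 * d.1.1)) := congrArg _ e2
      rw [← mul_assoc, d3, one_mul, mul_smul_comm, ← mul_assoc, e2, smul_mul_assoc, smul_smul, mul_assoc x.1.1, d3, mul_one] at this
      rw [← this, one_smul]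
    have c1 : c = 1 := by
      have := smul_left_injective K (x.1.ne_zero) c2
      exact pow_eq_zero_iff two_ne_zero |>.1 (show (c - 1) ^ 2 = 0 by linear_combination this + (1 - c) * h2) |> sub_eq_zero.1
    rw [c1, one_smul, ← hd] at e2
    exact star_nc h2 hv hφ h.1 e2 e1 fun k => e (Subtype.ext (Units.ext (by rw [k, one_smul] at e1; exact e1.symm)))
  have l0 : l ≠ 0 := fun k => by
    have := ((isUnit_iff_isUnit_det _).1 (tvGL v φ h.1 * tvGL w ψ h'.1).isUnit).ne_zero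
    rw [e, det_diagonal, Fin.prod_univ_three, k] at this
    simp at this
  have l1 : l ≠ 1 := fun k => hl (by rw [k, one_pow])
  have dg : ∀ g ∈ M, g.1.1.IsDiag := fun g hg => by
    obtain ⟨κ, k⟩ := star_sc (x := tvGL v φ h.1 * tvGL w ψ h'.1) (y := g.1) (by
      have := mul_mem (inv_mem (inv hv hφ h g hg)) (nZ.conj_mem _ (inv hw hψ h' g hg) (g * ⟨_, h.2⟩))
      rw [Subgroup.mem_comap] at this
      convert this using 1
      simp only [Subgroup.coe_subtype, Subgroup.coe_mul, Subgroup.coe_inv]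
      group)
    have t := congrArg (fun X => trace (X * (g.1⁻¹).1)) k
    simp only [smul_mul_assoc, trace_smul] at t
    rw [mul_assoc, Units.mul_inv, mul_one, trace_mul_cycle, Units.inv_mul, one_mul, e, trace_diagonal, Fin.sum_univ_three] at t
    have t0 : l + l⁻¹ + 1 ≠ 0 := fun r => hl (by
      field_simp at r
      linear_combination (l - 1) * r)
    rw [show κ = 1 from (mul_eq_right₀ t0).1 t.symm, one_smul, e] at k
    exact star_diag h2 l0 l1 k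
  exact MZ fun g hg => zZ ⟨hg, fun y hy => Subtype.ext (Units.ext (Dim3.diag_comm (dg y hy) (dg g hg)))⟩

/-- **Monomiality.**  `d`, `d'` interchange `e₀, e₁`; `ρ = d d' = diag(l, l⁻¹, 1)`, `l = c' / c`,
`ρ⁻² = [d, ρ] ∈ N` is not scalar.  Take `A` from `star_ab`.  By `Dim3.weight_lin`, `ρ²` or `ρ³`
centralises `A`; both have distinct diagonal entries (`l⁴ ≠ 1`, `l⁶ ≠ 1` in characteristic two), so `A`
is diagonal, with characters `χ₀, χ₁, χ₂`.  `χ₂ ≠ χ₀, χ₁` (conjugate by `d`; else `A` is scalar).  If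
`s i j ≠ 0 ≠ s i j'` for `s = 1 + v φ` then `χ_j = χ_j'`.  `φ 2 = v 0 φ 0 + v 1 φ 1 ≠ 0`.  For `i ≠ 2` with
`v i ≠ 0`: `s i 2 ≠ 0`, so `s i 0 = s i 1 = 0`, that is `v i φ i = 1` and `φ i' = 0` for the other `i'`,
and then `v i' = 0`. -/
theorem star (h2 : (2 : K) = 0) [Finite H] (hs : Sg H) {c c' : K} (hc : c ≠ 0) (hc' : c' ≠ 0)
    (h3 : c ^ 3 ≠ c' ^ 3) (d : Tv H ![1, c, 0] ![1, c⁻¹, 0]) (d' : Tv H ![1, c', 0] ![1, c'⁻¹, 0])
    {v φ : Fin 3 → K} (s : Tv H v φ) (hv : v 2 = 1) (hφ : φ 2 ≠ 0) :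
    (v 1 = 0 ∧ φ 1 = 0 ∧ v 0 * φ 0 = 1) ∨ (v 0 = 0 ∧ φ 0 = 0 ∧ v 1 * φ 1 = 1) := by
  have nz : ∀ a b : K, (![1, a, b] : Fin 3 → K) ≠ 0 := fun a b e => one_ne_zero (congrFun e 0)
  have h11 : (1 : K) + 1 = 0 := one_add_one_eq_two.trans h2
  have mat : ∀ {c : K}, c ≠ 0 → ∀ h, (tvGL ![1, c, 0] ![1, c⁻¹, 0] h).1 = !![0, c⁻¹, 0; c, 0, 0; 0, 0, 1] := fun hc h => by
    ext i j
    fin_cases i <;> fin_cases j <;> simp [h11, hc]
  obtain ⟨l, hl⟩ : ∃ l, l = c' / c := ⟨_, rfl⟩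
  have l0 : l ≠ 0 := hl ▸ div_ne_zero hc' hc
  have l3 : l ^ 3 ≠ 1 := fun e => h3 (by rw [hl, div_pow, div_eq_one_iff_eq (pow_ne_zero 3 hc)] at e; exact e.symm)
  have l2 : l ^ 2 ≠ 1 := fun e => l3 (by
    rw [sub_eq_zero.1 (pow_eq_zero_iff two_ne_zero |>.1 (show (l - 1) ^ 2 = 0 by linear_combination e + (1 - l) * h2)), one_pow])
  have e : (tvGL _ _ d.1 * tvGL _ _ d'.1).1 = diagonal ![l, l⁻¹, 1] := by
    rw [Units.val_mul, mat hc, mat hc', hl]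
    ext i j
    fin_cases i <;> fin_cases j <;> simp [div_eq_mul_inv, mul_comm]
  have ep : ∀ n : ℕ, ((tvGL _ _ d.1 * tvGL _ _ d'.1) ^ n).1 = diagonal ![l ^ n, (l ^ n)⁻¹, 1] := fun n => by
    rw [Units.val_pow_eq_pow_val, e, diagonal_pow]
    congr 1
    ext i
    fin_cases i <;> simp
  obtain ⟨N, nN, oN, hN⟩ := star_z h2 hs (nz _ _) (nz _ _) d
  obtain ⟨A, nA, AN, ab, x, hx, nx⟩ := star_ab h2 oN ⟨_, inv_mem (hN (⟨_, d.2⟩ * ⟨_, d'.2⟩)), fun k => by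
    obtain ⟨t, k⟩ := Dim3.mem_scalars_iff'.1 k
    have : (tvGL _ _ d.1 * (tvGL _ _ d.1 * tvGL _ _ d'.1) * (tvGL _ _ d.1)⁻¹ * (tvGL _ _ d.1 * tvGL _ _ d'.1)⁻¹)⁻¹ =
        (tvGL _ _ d.1 * tvGL _ _ d'.1) ^ 2 := by
      rw [← mul_assoc, star_sq h2, one_mul]
      simp only [_root_.mul_inv_rev, inv_inv, inv_eq_of_mul_eq_one_right (star_sq h2 d'.1), pow_two, mul_assoc]
    have k := ((congrArg Units.val this).trans (ep 2)).symm.trans k
    exact l2 ((by simpa using congrFun (congrFun k 0) 0 : l ^ 2 = t).trans (by simpa using congrFun (congrFun k 2) 2 : 1 = t).symm)⟩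
    (nz _ _) (nz _ _) (nz _ _) (nz _ _) d d' l3 e
  have dg : ∀ a ∈ A, a.1.1.IsDiag := fun a ha => by
    have k : ∀ n : ℕ, l ^ n ≠ 1 → (⟨_, d.2⟩ * ⟨_, d'.2⟩ : H) ^ n * a = a * (⟨_, d.2⟩ * ⟨_, d'.2⟩ : H) ^ n → a.1.1.IsDiag :=
      fun n a b => star_diag h2 (pow_ne_zero n l0) a (by rw [← ep]; exact congrArg (fun x : H => x.1.1) b)
    rcases Dim3.weight_lin (A : Set H) ab (fun a ha => ⟨Nat.card N, by
      obtain ⟨m, hm⟩ := oN
      rw [hm]; push_cast; rw [h2, zero_mul, zero_add]; exact one_ne_zero,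
      congrArg Subtype.val (pow_card_eq_one' (x := (⟨a, AN ha⟩ : N)))⟩) (h := ⟨_, d.2⟩ * ⟨_, d'.2⟩)
      (fun a ha => nA.conj_mem a ha _) with r | r
    exacts [k 2 l2 (r a ha), k 3 l3 (r a ha)]
  have wt : ∀ (g : H) (i j : Fin 3), g.1.1 i j ≠ 0 → ∀ a ∈ A, (g * a * g⁻¹).1.1 i i = a.1.1 j j := fun g i j n a ha => by
    have := congrFun (congrFun (congrArg (fun x : H => x.1.1) (inv_mul_cancel_right (g * a) g)) i) j
    change ((g * a * g⁻¹).1.1 * g.1.1) i j = (g.1.1 * a.1.1) i j at this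
    rw [Dim3.diag_mul_apply (dg _ (nA.conj_mem a ha g)), Dim3.mul_diag_apply (dg a ha), mul_comm] at this
    exact mul_left_cancel₀ n this
  have sw : ∀ i j : Fin 3, (tvGL _ _ d.1).1 i j ≠ 0 → (∀ a ∈ A, a.1.1 i i = a.1.1 2 2) → ∀ a ∈ A, a.1.1 j j = a.1.1 2 2 :=
    fun i j n r a ha => by
      rw [← wt ⟨_, d.2⟩ i j n a ha, r _ (nA.conj_mem a ha _), wt ⟨_, d.2⟩ 2 2 (by simp) a ha]
  have no : ¬ ((∀ a ∈ A, a.1.1 0 0 = a.1.1 2 2) ∨ ∀ a ∈ A, a.1.1 1 1 = a.1.1 2 2) := fun k => by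
    obtain ⟨r0, r1⟩ : (∀ a ∈ A, a.1.1 0 0 = a.1.1 2 2) ∧ ∀ a ∈ A, a.1.1 1 1 = a.1.1 2 2 :=
      k.elim (fun r => ⟨r, sw 0 1 (by simp [hc]) r⟩) fun r => ⟨sw 1 0 (by simp [hc]) r, r⟩
    refine nx (Dim3.mem_scalars_iff'.2 ⟨_, Dim3.diag_eq_smul (dg x hx) (c := x.1.1 2 2) fun i => ?_⟩)
    fin_cases i
    exacts [r0 x hx, r1 x hx, rfl]
  have row : ∀ i : Fin 3, i ≠ 2 → v i ≠ 0 → (tvGL v φ s.1).1 i 0 = 0 ∧ (tvGL v φ s.1).1 i 1 = 0 := fun i i2 n => by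
    have k : (tvGL v φ s.1).1 i 2 ≠ 0 := by simp [vecMulVec_apply, one_apply_ne i2, n, hφ]
    exact ⟨by_contra fun r => no (.inl fun a ha => (wt ⟨_, s.2⟩ i 0 r a ha).symm.trans (wt ⟨_, s.2⟩ i 2 k a ha)),
      by_contra fun r => no (.inr fun a ha => (wt ⟨_, s.2⟩ i 1 r a ha).symm.trans (wt ⟨_, s.2⟩ i 2 k a ha))⟩
  have r0 := row 0 (by decide)
  have r1 := row 1 (by decide)
  have dt := s.1
  simp only [tvGL_coe, Matrix.add_apply, vecMulVec_apply, one_apply_eq, one_apply_ne (show (0 : Fin 3) ≠ 1 by decide),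
    one_apply_ne (show (1 : Fin 3) ≠ 0 by decide), zero_add, mul_eq_zero] at r0 r1
  simp only [dotProduct, Fin.sum_univ_three, hv, mul_one] at dt
  by_cases a : v 0 = 0
  · have b : v 1 ≠ 0 := fun b => hφ (by simpa [a, b] using dt)
    exact .inr ⟨a, (r1 b).1.resolve_left b, by linear_combination (r1 b).2 - h2⟩
  · have p := (r0 a).2.resolve_left a
    exact .inl ⟨by_contra fun b => by simpa [p] using (r1 b).2, p, by linear_combination (r0 a).1 - h2⟩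

end Cfsg.Lib.TVn
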